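import Mathlib
import Cfsg.Agent.Lib.Omega.QuadraticField
import Cfsg.Agent.Lib.Classes.OmegaOdd

/-!
A quadratic field of self-adjoint matrices on a quadratic space: its generator, its normaliser and the
ranks of the elements of odd order normalising it.
-/

set_option autoImplicit false
set_option linter.unusedSectionVars false

namespace CfsgLib.FieldExtOrth

open Module QuadraticMap CfsgLib.OrthGen
open scoped Matrix

variable {F : Type*} [Field F] [Fintype F] {ι : Type} [Fintype ι] [DecidableEq ι]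

/-- A purely quadratic generator of a field of self-adjoint matrices. -/
structure Gen (Q : QuadraticForm F (ι → F)) (K : Subalgebra F (Matrix ι ι F)) (θ : Matrix ι ι F) (ω : F) : Prop where
  mem : θ ∈ K
  span : ∀ k ∈ K, ∃ c d : F, k = c • 1 + d • θ
  sq : ∀ v, θ *ᵥ (θ *ᵥ v) = ω • v
  nonsq : ¬ IsSquare ω
  adj : ∀ u v, polar Q (θ *ᵥ u) v = polar Q u (θ *ᵥ v)
  nd : (polarBilin Q).Nondegenerate
  two : (2 : F) ≠ 0
  field : Cfsg.Geo.IsFieldSubalgebra 2 K
  ns : ∀ c : F, θ ≠ c • 1

variable {Q : QuadraticForm F (ι → F)} {K : Subalgebra F (Matrix ι ι F)} {θ : Matrix ι ι F} {ω : F}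

theorem exists_gen [Nonempty ι] (hQ : (polarBilin Q).Nondegenerate) (h2 : (2 : F) ≠ 0)
    (hK : Cfsg.Geo.IsFieldSubalgebra 2 K) (hKf : Cfsg.Geo.IsSelfAdjointFor (polar (⇑Q)) K) :
    ∃ θ ω, Gen Q K θ ω := by
  obtain ⟨θ, a, ω, hθ, hns, hθθ, hspan, ha⟩ := Omega.exists_quadratic_generator hK
  rw [ha h2, zero_smul, zero_add] at hθθ
  refine ⟨θ, ω, hθ, hspan, fun v => ?_, ?_, hKf θ hθ, hQ, h2, hK, hns⟩
  · rw [Matrix.mulVec_mulVec, hθθ, Matrix.smul_mulVec, Matrix.one_mulVec]
  · rintro ⟨s, rfl⟩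
    have hmul : (θ - s • 1) * (θ + s • 1) = 0 := by
      simp only [sub_mul, mul_add, Matrix.smul_mul, Matrix.mul_smul, Matrix.one_mul, Matrix.mul_one, hθθ]
      module
    obtain ⟨y, hy, hky⟩ := hK.inv _ (sub_mem hθ (K.smul_mem (one_mem K) s)) (sub_ne_zero.2 (hns s))
    rw [hK.comm _ (sub_mem hθ (K.smul_mem (one_mem K) s)) y hy] at hky
    have h0 : θ + s • 1 = 0 := by
      have h := congrArg (fun M => M * (θ + s • (1 : Matrix ι ι F))) hky
      simpa only [Matrix.mul_assoc, hmul, Matrix.mul_zero, Matrix.one_mul] using h.symm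
    exact hns (-s) (by rw [neg_smul]; exact eq_neg_of_add_eq_zero_left h0)

namespace Gen

theorem omega_ne (S : Gen Q K θ ω) : ω ≠ 0 := fun h => S.nonsq (h ▸ IsSquare.zero)

/-- A subspace invariant under the generator has even dimension. -/
theorem even_finrank (S : Gen Q K θ ω) (W : Submodule F (ι → F)) (hW : ∀ v ∈ W, θ *ᵥ v ∈ W) :
    Even (finrank F W) := by
  let f : W →ₗ[F] W := (Matrix.toLin' θ).restrict fun v hv => by rw [Matrix.toLin'_apply]; exact hW v hv
  have hf : f * f = ω • 1 := LinearMap.ext fun v => Subtype.ext (by simp [f, S.sq])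
  have h := congrArg LinearMap.det hf
  rw [map_mul, LinearMap.det_smul, map_one, mul_one] at h
  refine Nat.not_odd_iff_even.1 fun ⟨k, hk⟩ => S.nonsq ⟨LinearMap.det f / ω ^ k, ?_⟩
  rw [hk] at h
  have := S.omega_ne
  field_simp
  linear_combination -h

theorem mem_of_commute (S : Gen Q K θ ω) (g : GL ι F) (h : ∀ v, (g : Matrix ι ι F) *ᵥ (θ *ᵥ v) = θ *ᵥ ((g : Matrix ι ι F) *ᵥ v)) :
    g ∈ Cfsg.Geo.subalgebraNormalizer K :=
  Omega.mem_normalizer_of_generator S.mem S.span g one_ne_zero (c := 0) (d := 1) (by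
    refine Matrix.toLin'.injective (LinearMap.ext fun v => ?_)
    simp only [zero_smul, zero_add, one_smul, Matrix.toLin'_apply, ← Matrix.mulVec_mulVec, h])

theorem mem_of_anticommute (S : Gen Q K θ ω) (g : GL ι F)
    (h : ∀ v, (g : Matrix ι ι F) *ᵥ (θ *ᵥ v) = -(θ *ᵥ ((g : Matrix ι ι F) *ᵥ v))) :
    g ∈ Cfsg.Geo.subalgebraNormalizer K :=
  Omega.mem_normalizer_of_generator S.mem S.span g (c := 0) (d := -1) (neg_ne_zero.2 one_ne_zero) (by
    refine Matrix.toLin'.injective (LinearMap.ext fun v => ?_)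
    simp only [zero_smul, zero_add, Matrix.toLin'_apply, neg_smul, one_smul, ← Matrix.mulVec_mulVec, h,
      Matrix.neg_mulVec])

/-- A normalising element carries the generator to plus or minus itself. -/
theorem conj_cases (S : Gen Q K θ ω) [Nonempty ι] {g : GL ι F} (hg : g ∈ Cfsg.Geo.subalgebraNormalizer K) :
    (g : Matrix ι ι F) * θ = θ * (g : Matrix ι ι F) ∨ (g : Matrix ι ι F) * θ = -(θ * (g : Matrix ι ι F)) := by
  set A := (g : Matrix ι ι F) with hA
  set B := ((g⁻¹ : GL ι F) : Matrix ι ι F) with hB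
  have hBA : B * A = 1 := by rw [hA, hB, ← Units.val_mul, inv_mul_cancel, Units.val_one]
  have hAB : A * B = 1 := by rw [hA, hB, ← Units.val_mul, mul_inv_cancel, Units.val_one]
  obtain ⟨c, d, hcd⟩ := S.span _ ((hg θ).1 S.mem)
  rw [← hA, ← hB] at hcd
  have hmul : A * θ = (c • 1 + d • θ) * A := by rw [← hcd, Matrix.mul_assoc, hBA, Matrix.mul_one]
  have hθθ : θ * θ = ω • (1 : Matrix ι ι F) := Matrix.ext_of_mulVec_single fun i => by
    rw [← Matrix.mulVec_mulVec, S.sq, Matrix.smul_mulVec, Matrix.one_mulVec]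
  have hsq : (c • (1 : Matrix ι ι F) + d • θ) * (c • 1 + d • θ) = ω • 1 := by
    have h : (A * θ * B) * (A * θ * B) = A * (θ * (B * A) * θ) * B := by simp only [Matrix.mul_assoc]
    rw [hBA, Matrix.mul_one, hθθ, Matrix.mul_smul, Matrix.mul_one, Matrix.smul_mul, hAB, hcd] at h
    exact h
  simp only [mul_add, add_mul, Matrix.smul_mul, Matrix.mul_smul, Matrix.one_mul, Matrix.mul_one, hθθ] at hsq
  have hzero : (2 * c * d) • θ = (ω - c * c - d * d * ω) • (1 : Matrix ι ι F) := by
    linear_combination (norm := module) hsq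
  have hcd0 : 2 * c * d = 0 := by
    by_contra hne
    refine S.ns ((2 * c * d)⁻¹ * (ω - c * c - d * d * ω)) ?_
    rw [← smul_smul, ← hzero, smul_smul, inv_mul_cancel₀ hne, one_smul]
  have hrest : ω - c * c - d * d * ω = 0 := by
    rw [hcd0, zero_smul, eq_comm, smul_eq_zero] at hzero
    exact hzero.resolve_right one_ne_zero
  have hd0 : d ≠ 0 := fun h0 => S.nonsq ⟨c, by rw [h0] at hrest; linear_combination hrest⟩
  have hc0 : c = 0 := (mul_eq_zero.1 ((mul_eq_zero.1 hcd0).resolve_right hd0)).resolve_left S.two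
  have hd : d = 1 ∨ d = -1 := mul_self_eq_one_iff.1 (mul_right_cancel₀ S.omega_ne (by
    rw [hc0] at hrest
    linear_combination -hrest))
  rcases hd with rfl | rfl
  · exact .inl (by simp [hmul, hc0])
  · exact .inr (by simp [hmul, hc0, Matrix.neg_mul])

/-- An element of odd order normalising the field commutes with it. -/
theorem commute_of_odd (S : Gen Q K θ ω) [Nonempty ι] {g : GL ι F} (hg : g ∈ Cfsg.Geo.subalgebraNormalizer K)
    {r : ℕ} (hr : Odd r) (hgr : g ^ r = 1) : Commute (g : Matrix ι ι F) θ := by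
  obtain ⟨k, rfl⟩ := hr
  have h2 : Commute ((g : Matrix ι ι F) ^ 2) θ := by
    show _ * θ = θ * _
    rcases S.conj_cases hg with h | h
    · rw [pow_two, Matrix.mul_assoc, h, ← Matrix.mul_assoc, h, Matrix.mul_assoc]
    · rw [pow_two, Matrix.mul_assoc, h, Matrix.mul_neg, ← Matrix.mul_assoc, h, Matrix.neg_mul, neg_neg,
        Matrix.mul_assoc]
  have hg' : (g : Matrix ι ι F) = ((g : Matrix ι ι F) ^ 2) ^ (k + 1) := by
    rw [← pow_mul, show 2 * (k + 1) = 2 * k + 1 + 1 by ring, pow_succ, ← Units.val_pow_eq_pow_val, hgr,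
      Units.val_one, Matrix.one_mul]
  rw [hg']
  exact h2.pow_left _

/-- The rank of `y - 1` for an isometry `y` of odd order commuting with the field is divisible by four. -/
theorem four_dvd_rank (S : Gen Q K θ ω) (y : Module.End F (ι → F)) (hyQ : ∀ v, Q (y v) = Q v)
    (hyθ : ∀ v, y (θ *ᵥ v) = θ *ᵥ y v) {r : ℕ} (hr : Odd r) (hyr : y ^ r = 1) :
    4 ∣ finrank F (LinearMap.range (y - 1)) := by
  classical
  have hB : ∀ u v, polar Q (y u) (y v) = polar Q u v := fun u v => by
    simp only [polar, ← map_add, hyQ]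
  let β : LinearMap.BilinForm F (ι → F) :=
    LinearMap.BilinForm.compLeft (polarBilin Q) y - LinearMap.BilinForm.compRight (polarBilin Q) y
  have hβ : ∀ u v, β u v = polar Q (y u) v - polar Q u (y v) := fun u v => rfl
  have halt : ∀ u, β u u = 0 := fun u => by rw [hβ, polar_comm Q u, sub_self]
  have hrefl : β.IsRefl := LinearMap.IsAlt.isRefl (show LinearMap.IsAlt β from halt)
  have hadj : ∀ u v, β (θ *ᵥ u) v = β u (θ *ᵥ v) := fun u v => by
    rw [hβ, hβ, hyθ, hyθ, S.adj, S.adj]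
  have hself : ∀ u, β u (θ *ᵥ u) = 0 := fun u => by
    rw [hβ, hyθ, ← S.adj u (y u), polar_comm Q (θ *ᵥ u), sub_self]
  set R := LinearMap.BilinForm.orthogonal β ⊤ with hR
  have hker : R = LinearMap.ker (y - 1) := by
    ext u
    rw [hR, LinearMap.BilinForm.mem_orthogonal_iff, LinearMap.mem_ker, LinearMap.sub_apply, Module.End.one_apply,
      sub_eq_zero]
    constructor
    · intro h
      have h1 : y (y u) = u := by
        rw [← sub_eq_zero]
        refine S.nd.1 _ fun v => ?_
        obtain ⟨w, rfl⟩ : ∃ w, y w = v := ⟨(y ^ (r - 1)) v, by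
          rw [← Module.End.mul_apply, ← pow_succ', Nat.sub_add_cancel hr.pos, hyr, Module.End.one_apply]⟩
        have h3 : β w u = 0 := h w trivial
        rw [hβ] at h3
        rw [polarBilin_apply_apply, polar_sub_left, hB, polar_comm Q (y u), polar_comm Q u (y w)]
        linear_combination -h3
      obtain ⟨k, rfl⟩ := hr
      have hit : ∀ j : ℕ, (y ^ (2 * j)) u = u := fun j => by
        induction j with
        | zero => rfl
        | succ j ih => rw [show 2 * (j + 1) = 2 * j + 2 by ring, pow_add, Module.End.mul_apply, pow_two,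
            Module.End.mul_apply, h1, ih]
      conv_lhs => rw [← hit k]
      rw [← Module.End.mul_apply, ← pow_succ', hyr, Module.End.one_apply]
    · intro h v _
      show β v u = 0
      rw [hβ, h, ← hB v u, h, sub_self]
  have hRθ : ∀ u ∈ R, θ *ᵥ u ∈ R := fun u hu v _ => by
    show β v (θ *ᵥ u) = 0
    rw [← hadj]
    exact hu _ trivial
  let P : ℕ → Prop := fun m => ∃ W : Submodule F (ι → F), finrank F W = m ∧ R ≤ W ∧ (∀ v ∈ W, θ *ᵥ v ∈ W) ∧
    ∀ u ∈ W, ∀ v ∈ W, β u v = 0
  have hP : ∃ m, m ≤ Fintype.card ι ∧ P m := ⟨finrank F R, by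
    rw [← Module.finrank_fintype_fun_eq_card F]; exact Submodule.finrank_le R, R, rfl, le_rfl, hRθ,
    fun u _ v hv => hv u trivial⟩
  obtain ⟨m, hm, hm'⟩ := hP
  obtain ⟨W, hWm, hRW, hWθ, hWi⟩ := Nat.findGreatest_spec (P := P) hm hm'
  have hWo : LinearMap.BilinForm.orthogonal β W = W := by
    refine le_antisymm (fun u hu => ?_) fun v hv w hw => hWi w hw v hv
    by_contra hne
    have hθu : ∀ w ∈ W, β w (θ *ᵥ u) = 0 := fun w hw => by rw [← hadj]; exact hu _ (hWθ w hw)
    have hu' : ∀ w ∈ W, β w u = 0 := hu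
    set W' := W ⊔ Submodule.span F {u, θ *ᵥ u} with hW'
    have hmem : ∀ z, z ∈ W' ↔ ∃ w ∈ W, ∃ a b : F, z = w + (a • u + b • (θ *ᵥ u)) := fun z => by
      rw [hW', Submodule.mem_sup]
      constructor
      · rintro ⟨w, hw, t, ht, rfl⟩
        obtain ⟨a, b, rfl⟩ := Submodule.mem_span_pair.1 ht
        exact ⟨w, hw, a, b, rfl⟩
      · rintro ⟨w, hw, a, b, rfl⟩
        exact ⟨w, hw, _, Submodule.mem_span_pair.2 ⟨a, b, rfl⟩, rfl⟩
    have hlt : W < W' := lt_of_le_of_ne le_sup_left fun he => hne (by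
      rw [he]; exact Submodule.mem_sup_right (Submodule.subset_span (by simp)))
    have hle := Submodule.finrank_lt_finrank_of_lt hlt
    have hbound : finrank F W' ≤ Fintype.card ι := by
      rw [← Module.finrank_fintype_fun_eq_card F]; exact Submodule.finrank_le W'
    have := Nat.le_findGreatest hbound (show P (finrank F W') from ⟨W', rfl, hRW.trans hlt.le, fun z hz => by
      obtain ⟨w, hw, a, b, rfl⟩ := (hmem z).1 hz
      refine (hmem _).2 ⟨_, hWθ w hw, b * ω, a, ?_⟩
      rw [Matrix.mulVec_add, Matrix.mulVec_add, Matrix.mulVec_smul, Matrix.mulVec_smul, S.sq, smul_smul]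
      module, fun z hz z' hz' => by
      obtain ⟨w, hw, a, b, rfl⟩ := (hmem z).1 hz
      obtain ⟨w', hw', a', b', rfl⟩ := (hmem z').1 hz'
      simp only [map_add, map_smul, LinearMap.add_apply, LinearMap.smul_apply, smul_eq_mul, hWi w hw w' hw',
        hu' w hw, hθu w hw, hrefl _ _ (hu' w' hw'), hrefl _ _ (hθu w' hw'), halt, hself,
        hrefl _ _ (hself u)]
      ring⟩)
    omega
  have hdim := LinearMap.BilinForm.finrank_add_finrank_orthogonal hrefl W
  rw [hWo, ← hR, inf_of_le_right hRW, Module.finrank_fintype_fun_eq_card] at hdim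
  have hrk := LinearMap.finrank_range_add_finrank_ker (y - 1)
  rw [← hker, Module.finrank_fintype_fun_eq_card] at hrk
  obtain ⟨a, ha⟩ := S.even_finrank W hWθ
  obtain ⟨b, hb⟩ := S.even_finrank R hRθ
  have := Submodule.finrank_mono hRW
  exact ⟨a - b, by omega⟩

end Gen

end CfsgLib.FieldExtOrth
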