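import Mathlib
import Cfsg.Agent.Lib.FieldExtOrth.Setup
import Cfsg.Agent.Lib.Derangements.OrthTypeDisc
import Cfsg.Agent.Lib.ClassicalForms.Ortho.Standard

/-!
The orthogonal group over the quadratic extension inside the normaliser of a quadratic field of self-adjoint
matrices, and the odd primes not dividing the index.
-/

set_option autoImplicit false
set_option linter.unusedSectionVars false
set_option linter.style.haveILetI false

namespace CfsgLib.FieldExtOrth

open Module QuadraticMap CfsgLib.OrthGen CfsgLib.Derangements CfsgLib.ClassicalForms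
open scoped Matrix

universe u

theorem prod_range_two_mul {R : Type*} [CommMonoid R] (f : ℕ → R) (l : ℕ) :
    ∏ j ∈ Finset.range (2 * l), f (j + 1) =
      (∏ j ∈ Finset.range l, f (2 * (j + 1))) * ∏ j ∈ Finset.range l, f (2 * j + 1) := by
  induction l with
  | zero => simp
  | succ l ih =>
    rw [show 2 * (l + 1) = 2 * l + 1 + 1 by ring, Finset.prod_range_succ, Finset.prod_range_succ, ih,
      Finset.prod_range_succ _ l, Finset.prod_range_succ _ l, show 2 * (l + 1) = 2 * l + 1 + 1 by ring]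
    ac_rfl

theorem prod_range_two_mul_succ {R : Type*} [CommMonoid R] (f : ℕ → R) (l : ℕ) :
    ∏ j ∈ Finset.range (2 * l + 1), f (j + 1) =
      (∏ j ∈ Finset.range l, f (2 * (j + 1))) * ∏ j ∈ Finset.range (l + 1), f (2 * j + 1) := by
  rw [Finset.prod_range_succ, prod_range_two_mul, Finset.prod_range_succ _ l, mul_assoc]

variable {F : Type u} [Field F] [Fintype F] {ι : Type} [Fintype ι] [DecidableEq ι]
  {Q : QuadraticForm F (ι → F)} {K : Subalgebra F (Matrix ι ι F)} {θ : Matrix ι ι F} {ω : F}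

/-- Scaling a form does not change its isometry group. -/
theorem card_orth_smul {E V : Type*} [Field E] [AddCommGroup V] [Module E V] {c : E} (hc : c ≠ 0)
    (P : QuadraticForm E V) : Nat.card (orth (c • P)) = Nat.card (orth P) := by
  refine Nat.card_congr (Equiv.subtypeEquivRight fun g => ?_)
  simp [mem_orth, hc]

/-- The orthogonal group over the quadratic extension embeds in the normaliser. -/
theorem Gen.exists_card_dvd (S : Gen Q K θ ω) {q d : ℕ} (hq : Nat.card F = q) (hι : Fintype.card ι = 2 * d)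
    (hd : 2 ≤ d) {ε : ℤ} (hD : OrthType.HasDisc Q (ε * (Nat.card F : ℤ) ^ d)) :
    ∃ n M : ℕ, n ∣ Nat.card ((Cfsg.Geo.subalgebraNormalizer K).subgroupOf (Cfsg.isometryGroup F (⇑Q))) ∧
      ((∃ l, d = 2 * l ∧ (n : ℤ) = 2 * (q : ℤ) ^ M * ((q : ℤ) ^ d - ε) *
          ∏ j ∈ Finset.range (l - 1), ((q : ℤ) ^ (4 * (j + 1)) - 1)) ∨
        ∃ l, d = 2 * l + 1 ∧ (n : ℤ) = 2 * (q : ℤ) ^ M *
          ∏ j ∈ Finset.range l, ((q : ℤ) ^ (4 * (j + 1)) - 1)) := by
  classical
  have h2 := S.two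
  haveI : Fact (∀ t : F, t ^ 2 ≠ ω + 0 * t) := ⟨fun t h => S.nonsq ⟨t, by linear_combination -h⟩⟩
  haveI : Finite (QuadraticAlgebra F ω 0) := Finite.of_equiv _ (QuadraticAlgebra.equivProd ω 0).symm
  have hθθ : θ * θ = ω • (1 : Matrix ι ι F) + (0 : F) • θ := Matrix.toLin'.injective (LinearMap.ext fun v => by
    simp only [Matrix.toLin'_apply, zero_smul, add_zero, ← Matrix.mulVec_mulVec, S.sq, Matrix.smul_mulVec,
      Matrix.one_mulVec])
  let ρ : (QuadraticAlgebra F ω 0) →ₐ[F] Matrix ι ι F := QuadraticAlgebra.lift ⟨θ, hθθ⟩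
  letI : Module (QuadraticAlgebra F ω 0) (ι → F) := Module.compHom _ ((Matrix.toLinAlgEquiv'.toAlgHom.comp ρ).toRingHom)
  have hsmul : ∀ (z : (QuadraticAlgebra F ω 0)) (v : ι → F), z • v = z.re • v + z.im • (θ *ᵥ v) := fun z v => by
    show (z.re • (1 : Matrix ι ι F) + z.im • θ) *ᵥ v = _
    rw [Matrix.add_mulVec, Matrix.smul_mulVec, Matrix.smul_mulVec, Matrix.one_mulVec]
  haveI : IsScalarTower F (QuadraticAlgebra F ω 0) (ι → F) := ⟨fun c z v => by
    rw [hsmul, hsmul, QuadraticAlgebra.re_smul, QuadraticAlgebra.im_smul, smul_eq_mul, smul_eq_mul, smul_add,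
      smul_smul, smul_smul]⟩
  have hcomm : ∀ u v, polar Q v (θ *ᵥ u) = polar Q u (θ *ᵥ v) := fun u v => by
    rw [polar_comm, S.adj]
  let Φb : (ι → F) →ₗ[(QuadraticAlgebra F ω 0)] (ι → F) →ₗ[(QuadraticAlgebra F ω 0)] (QuadraticAlgebra F ω 0) := LinearMap.mk₂ (QuadraticAlgebra F ω 0)
    (fun u v => (⟨polar Q u (θ *ᵥ v), polar Q u v⟩ : (QuadraticAlgebra F ω 0)))
    (fun u u' v => QuadraticAlgebra.ext (polar_add_left _ _ _ _) (polar_add_left _ _ _ _))
    (fun z u v => by
      ext <;> simp [hsmul, polar_add_left, polar_smul_left, S.adj, S.sq, polar_smul_right] <;> ring)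
    (fun u v v' => QuadraticAlgebra.ext (by simp [Matrix.mulVec_add, polar_add_right]) (polar_add_right _ _ _ _))
    (fun z u v => by
      ext <;> simp [hsmul, Matrix.mulVec_add, Matrix.mulVec_smul, S.sq, polar_add_right, polar_smul_right] <;> ring)
  let Φ : QuadraticForm (QuadraticAlgebra F ω 0) (ι → F) := LinearMap.BilinMap.toQuadraticMap Φb
  have him : ∀ v, (Φ v).im = 2 * Q v := fun v => by
    show polar Q v v = _
    rw [polar_self, two_nsmul, two_mul]
  haveI : FiniteDimensional (QuadraticAlgebra F ω 0) (ι → F) := Module.Finite.of_restrictScalars_finite F (QuadraticAlgebra F ω 0) _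
  have hpol : ∀ u v, polar Φ u v = 2 * Φb u v := fun u v => by
    show polar (fun x => Φb x x) u v = _
    simp only [polar, map_add, LinearMap.add_apply]
    have : Φb v u = Φb u v := QuadraticAlgebra.ext (hcomm u v) (polar_comm _ _ _)
    rw [this]; ring
  have hE2 : (2 : (QuadraticAlgebra F ω 0)) ≠ 0 := fun h => h2 (by
    have h' : algebraMap F (QuadraticAlgebra F ω 0) 2 = algebraMap F (QuadraticAlgebra F ω 0) 0 := by rw [map_ofNat, map_zero, h]
    exact (algebraMap F (QuadraticAlgebra F ω 0)).injective h')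
  have hnd : Nondeg Φ := fun u hu => S.nd.1 u fun v => by
    have h := hu v
    rw [hpol, mul_eq_zero, or_iff_right hE2] at h
    exact congrArg QuadraticAlgebra.im h
  have hfin : finrank (QuadraticAlgebra F ω 0) (ι → F) = d := by
    have h := Module.finrank_mul_finrank F (QuadraticAlgebra F ω 0) (ι → F)
    rw [QuadraticAlgebra.finrank_eq_two, Module.finrank_fintype_fun_eq_card, hι] at h
    omega
  have hEcard : Nat.card (QuadraticAlgebra F ω 0) = q ^ 2 := by
    rw [Nat.card_congr (QuadraticAlgebra.equivProd ω 0), Nat.card_prod, hq, pow_two]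
  -- the embedding
  let iso : orth Φ → Cfsg.isometryGroup F (⇑Q) := fun g =>
    mkIso Q (LinearMap.toMatrix' ((g : (ι → F) ≃ₗ[(QuadraticAlgebra F ω 0)] (ι → F)).toLinearMap.restrictScalars F))
      (LinearMap.toMatrix' ((g : (ι → F) ≃ₗ[(QuadraticAlgebra F ω 0)] (ι → F)).symm.toLinearMap.restrictScalars F))
      (by
        rw [← LinearMap.toMatrix'_comp, ← LinearMap.toMatrix'_id]
        exact congrArg LinearMap.toMatrix' (LinearMap.ext fun v =>
          (g : (ι → F) ≃ₗ[(QuadraticAlgebra F ω 0)] (ι → F)).apply_symm_apply v))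
      (by
        rw [← LinearMap.toMatrix'_comp, ← LinearMap.toMatrix'_id]
        exact congrArg LinearMap.toMatrix' (LinearMap.ext fun v =>
          (g : (ι → F) ≃ₗ[(QuadraticAlgebra F ω 0)] (ι → F)).symm_apply_apply v))
      (fun v => mul_left_cancel₀ h2 (by
        rw [LinearMap.toMatrix'_mulVec, ← him, ← him]
        exact congrArg QuadraticAlgebra.im (g.2 v)))
  have hact : ∀ (g : orth Φ) v, act Q (iso g) v = (g : (ι → F) ≃ₗ[(QuadraticAlgebra F ω 0)] (ι → F)) v := fun g v => by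
    rw [act, coe_mkIso, LinearMap.toMatrix'_mulVec]; rfl
  have hmem : ∀ g : orth Φ, iso g ∈ (Cfsg.Geo.subalgebraNormalizer K).subgroupOf (Cfsg.isometryGroup F (⇑Q)) := by
    intro g
    refine S.mem_of_commute _ fun v => ?_
    have e : ∀ w, θ *ᵥ w = (⟨0, 1⟩ : (QuadraticAlgebra F ω 0)) • w := fun w => by rw [hsmul]; simp
    show act Q (iso g) _ = θ *ᵥ act Q (iso g) v
    rw [hact, hact, e, e, map_smul]
  let hom : orth Φ →* (Cfsg.Geo.subalgebraNormalizer K).subgroupOf (Cfsg.isometryGroup F (⇑Q)) :=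
    MonoidHom.mk' (fun g => ⟨iso g, hmem g⟩) fun g g' => Subtype.ext (ext_act fun v => by
      rw [Subgroup.coe_mul, act_mul, hact, hact, hact]; rfl)
  have hinj : Function.Injective hom := fun g g' h => orth_ext fun v => by
    have h' := congrArg (fun x => act Q (Subtype.val x) v) h
    simp only [hom, MonoidHom.mk'_apply, hact] at h'
    exact h'
  have hdvd := Subgroup.card_dvd_of_injective hom hinj
  rcases Nat.even_or_odd' d with ⟨l, rfl | rfl⟩
  · obtain ⟨ε', hε', hDE⟩ : ∃ ε' : ℤ, (ε' = 1 ∨ ε' = -1) ∧ OrthType.HasDisc Φ (ε' * (Nat.card (QuadraticAlgebra F ω 0) : ℤ) ^ l) := by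
      rcases OrthType.exists_hasDisc hfin Φ (nondeg_iff_polarBilin.2 hnd) with h | h
      · exact ⟨1, .inl rfl, by rwa [one_mul]⟩
      · exact ⟨-1, .inr rfl, by rwa [neg_one_mul]⟩
    have hsign : ε' = ε := by
      letI := Fintype.ofFinite (QuadraticAlgebra F ω 0)
      have hfib : ∀ c : F, OrthType.nval Q c = ∑ s : F, OrthType.nval Φ (⟨s, 2 * c⟩ : (QuadraticAlgebra F ω 0)) := fun c => by
        let e : {v : ι → F // Q v = c} ≃ Σ s : F, {v : ι → F // Φ v = (⟨s, 2 * c⟩ : (QuadraticAlgebra F ω 0))} :=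
          { toFun := fun v => ⟨(Φ v.1).re, v.1, QuadraticAlgebra.ext rfl (by rw [him, v.2])⟩
            invFun := fun v => ⟨v.2.1, mul_left_cancel₀ h2 (by rw [← him, v.2.2])⟩
            left_inv := fun v => rfl
            right_inv := by
              rintro ⟨s, v, hv⟩
              obtain rfl : (Φ v).re = s := by rw [hv]
              rfl }
        rw [OrthType.nval, Nat.card_congr e, Nat.card_sigma]
        rfl
      have h1 := hD 1 one_ne_zero
      rw [hfib, hfib, Nat.cast_sum, Nat.cast_sum, ← Finset.sum_sub_distrib, Finset.sum_eq_single (0 : F)] at h1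
      · have hz : (⟨0, 2 * 0⟩ : (QuadraticAlgebra F ω 0)) = 0 := QuadraticAlgebra.ext rfl (mul_zero 2)
        rw [hz, hDE _ (fun h => mul_ne_zero h2 one_ne_zero (congrArg QuadraticAlgebra.im h)), hEcard, hq] at h1
        push_cast at h1
        rw [← pow_mul] at h1
        exact mul_right_cancel₀ (pow_ne_zero _ (by
          rw [← hq]; exact_mod_cast Nat.card_pos.ne')) h1
      · intro s _ hs
        have hs1 : (⟨s, 2 * 0⟩ : (QuadraticAlgebra F ω 0)) ≠ 0 := fun h => hs (congrArg QuadraticAlgebra.re h)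
        have hs2 : (⟨s, 2 * 1⟩ : (QuadraticAlgebra F ω 0)) ≠ 0 := fun h => hs (congrArg QuadraticAlgebra.re h)
        linear_combination hDE _ hs2 - hDE _ hs1
      · exact fun h => absurd (Finset.mem_univ _) h
    subst hsign
    obtain ⟨M, hM⟩ : ∃ M : ℕ, (Nat.card (orth Φ) : ℤ) = 2 * (q : ℤ) ^ M * ((q : ℤ) ^ (2 * l) - ε') *
        ∏ j ∈ Finset.range (l - 1), ((q : ℤ) ^ (4 * (j + 1)) - 1) := by
      rcases hε' with rfl | rfl
      · obtain ⟨Ei, hEq⟩ := OrthType.exists_isometry hfin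
          (by rw [Module.finrank_fintype_fun_eq_card]; simp [two_mul]) (nondeg_iff_polarBilin.2 hnd)
          (nondeg_iff_polarBilin.2 (nondeg_qPlus (F := (QuadraticAlgebra F ω 0)) l)) (by rw [one_mul] at hDE; exact hDE)
          (OrthType.hasDisc_qPlus l)
        refine ⟨2 * (l * (l - 1)), ?_⟩
        rw [Nat.card_congr (orthCongr Ei hEq).toEquiv, card_orth_qPlus l (by omega), hEcard]
        push_cast
        simp only [← pow_mul, ← mul_assoc, show 2 * 2 = 4 from rfl]
      · obtain ⟨a, ha⟩ := OrthType.exists_noroot (F := (QuadraticAlgebra F ω 0))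
        obtain ⟨k, rfl⟩ : ∃ k, l = k + 1 := ⟨l - 1, by omega⟩
        have hA := OrthType.aniso_of_noroot ha
        obtain ⟨Ei, hEq⟩ := OrthType.exists_isometry hfin
          (by rw [Module.finrank_fintype_fun_eq_card]; simp; ring) (nondeg_iff_polarBilin.2 hnd)
          (nondeg_iff_polarBilin.2 (nondeg_qMinus hA k)) (by rw [neg_one_mul] at hDE; exact hDE)
          (OrthType.hasDisc_qMinus hA k)
        refine ⟨2 * ((k + 1) * k), ?_⟩
        rw [Nat.card_congr (orthCongr Ei hEq).toEquiv, card_orth_qMinus hA k, hEcard]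
        push_cast
        simp only [← pow_mul, ← mul_assoc, show 2 * 2 = 4 from rfl, Nat.add_sub_cancel, sub_neg_eq_add]
    exact ⟨_, M, hdvd, .inl ⟨l, rfl, hM⟩⟩
  · obtain ⟨Ei, c, -, hc, hEq⟩ := Classes.exists_equiv_odd hfin Φ (nondeg_iff_polarBilin.2 hnd)
    let w : Unit ⊕ (Fin l ⊕ Fin l) → (QuadraticAlgebra F ω 0)ˣ :=
      Sum.elim (fun _ => 1) (Sum.elim (fun _ => Units.mk0 c⁻¹ (inv_ne_zero hc)) fun _ => 1)
    let W := Ei.trans (LinearEquiv.piCongrRight fun i => LinearEquiv.smulOfUnit (w i))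
    have hW : ∀ v, qOdd l (QuadraticAlgebra F ω 0) (W v) = (c⁻¹ • Φ) v := fun v => by
      rw [QuadraticMap.smul_apply, hEq, qOdd_apply]
      simp [W, w, Cfsg.quadFormOdd, LinearEquiv.smulOfUnit, Units.smul_def, mul_add, Finset.mul_sum, hc, pow_two,
        mul_assoc]
    refine ⟨_, 2 * l ^ 2, hdvd, .inr ⟨l, rfl, ?_⟩⟩
    rw [← card_orth_smul (inv_ne_zero hc) Φ, Nat.card_congr (orthCongr W hW).toEquiv, card_orth_qOdd hE2 l, hEcard]
    push_cast
    simp only [← pow_mul, ← mul_assoc, show 2 * 2 = 4 from rfl]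

/-- For a prime `r` with `4` dividing the order of `q` modulo `r` the index is prime to `r`. -/
theorem Gen.not_dvd_index (S : Gen Q K θ ω) {r : ℕ} [Fact r.Prime] (hr2 : r ≠ 2) {q d : ℕ} (hq : Nat.card F = q)
    (hι : Fintype.card ι = 2 * d) (hd : 2 ≤ d) {ε : ℤ} (hε : ε = 1 ∨ ε = -1)
    (hD : OrthType.HasDisc Q (ε * (Nat.card F : ℤ) ^ d)) {N : ℕ}
    (hG : (Nat.card (Cfsg.isometryGroup F (⇑Q)) : ℤ) = 2 * (q : ℤ) ^ N * ((q : ℤ) ^ d - ε) *
      ∏ j ∈ Finset.range (d - 1), ((q : ℤ) ^ (2 * (j + 1)) - 1))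
    (uq : (ZMod r)ˣ) (huq : (uq : ZMod r) = (q : ZMod r)) (h4 : 4 ∣ orderOf uq) :
    ¬ r ∣ ((Cfsg.Geo.subalgebraNormalizer K).subgroupOf (Cfsg.isometryGroup F (⇑Q))).index := by
  intro hdvd
  obtain ⟨n, M, hn, hcases⟩ := S.exists_card_dvd hq hι hd hD
  set H := (Cfsg.Geo.subalgebraNormalizer K).subgroupOf (Cfsg.isometryGroup F (⇑Q))
  have hrn : (r : ℤ) * n ∣ (Nat.card (Cfsg.isometryGroup F (⇑Q)) : ℤ) := by
    rw [← H.card_mul_index, mul_comm (Nat.card H)]
    exact_mod_cast Nat.mul_dvd_mul hdvd hn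
  have hn0 : (n : ℤ) ≠ 0 := by
    exact_mod_cast (fun h : n = 0 => (Nat.card_pos (α := H)).ne' (Nat.eq_zero_of_zero_dvd (h ▸ hn)))
  -- the leftover factors are prime to `r`
  have hodd : ∀ m : ℕ, Odd m → ((q : ℤ) ^ (2 * m) - 1 : ZMod r) ≠ 0 := fun m hm h => by
    have h1 : uq ^ (2 * m) = 1 := Units.ext (by
      rw [Units.val_pow_eq_pow_val, huq, Units.val_one]
      push_cast at h
      exact sub_eq_zero.1 h)
    have := h4.trans (orderOf_dvd_of_pow_eq_one h1)
    obtain ⟨t, rfl⟩ := hm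
    omega
  have hqpow : ∀ m : ℕ, ((q : ZMod r)) ^ m ≠ 0 := fun m => pow_ne_zero _ (huq ▸ uq.ne_zero)
  have key : ∀ A R : ℤ, (Nat.card (Cfsg.isometryGroup F (⇑Q)) : ℤ) * A = n * R → (R : ZMod r) ≠ 0 → False := by
    intro A R h hR
    refine hR ((ZMod.intCast_zmod_eq_zero_iff_dvd _ _).2 (Int.dvd_of_mul_dvd_mul_left hn0 ?_))
    rw [← h, mul_comm (n : ℤ)]
    exact hrn.mul_right A
  rcases hcases with ⟨l, rfl, hl⟩ | ⟨l, rfl, hl⟩
  · obtain ⟨k, rfl⟩ : ∃ k, l = k + 1 := ⟨l - 1, by omega⟩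
    refine key ((q : ℤ) ^ M) ((q : ℤ) ^ N * ∏ j ∈ Finset.range (k + 1), ((q : ℤ) ^ (2 * (2 * j + 1)) - 1)) ?_ ?_
    · rw [hG, hl, show 2 * (k + 1) - 1 = 2 * k + 1 by omega, Nat.add_sub_cancel,
        prod_range_two_mul_succ (fun m => (q : ℤ) ^ (2 * m) - 1) k]
      simp only [← mul_assoc, show 2 * 2 = 4 from rfl]
      ring
    · push_cast
      exact mul_ne_zero (hqpow N) (Finset.prod_ne_zero_iff.2 fun j _ => by
        simpa using hodd (2 * j + 1) ⟨j, rfl⟩)
  · refine key ((q : ℤ) ^ M) ((q : ℤ) ^ N * ((q : ℤ) ^ (2 * l + 1) - ε) *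
      ∏ j ∈ Finset.range l, ((q : ℤ) ^ (2 * (2 * j + 1)) - 1)) ?_ ?_
    · rw [hG, hl, Nat.add_sub_cancel, prod_range_two_mul (fun m => (q : ℤ) ^ (2 * m) - 1) l]
      simp only [← mul_assoc, show 2 * 2 = 4 from rfl]
      ring
    · push_cast
      refine mul_ne_zero (mul_ne_zero (hqpow N) fun h => hodd (2 * l + 1) ⟨l, rfl⟩ ?_)
        (Finset.prod_ne_zero_iff.2 fun j _ => by simpa using hodd (2 * j + 1) ⟨j, rfl⟩)
      push_cast
      rw [mul_comm, pow_mul, sub_eq_zero.1 h]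
      rcases hε with rfl | rfl <;> simp

end CfsgLib.FieldExtOrth
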