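import Mathlib
import Cfsg.Agent.Lib.FieldExtOrth.Setup

/-!
Orthonormal families of a quadratic space adapted to a quadratic field of self-adjoint matrices, and to
isometries of square plus or minus one.
-/

set_option autoImplicit false
set_option linter.unusedSectionVars false

namespace CfsgLib.FieldExtOrth

open Module QuadraticMap CfsgLib.OrthGen
open scoped Matrix

variable {F : Type*} [Field F] [Fintype F] {ι : Type} [Fintype ι] [DecidableEq ι]
  {Q : QuadraticForm F (ι → F)} {K : Subalgebra F (Matrix ι ι F)} {θ : Matrix ι ι F} {ω : F}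

/-- An orthonormal family. -/
def ON (Q : QuadraticForm F (ι → F)) {α : Type*} [DecidableEq α] (e : α → ι → F) : Prop :=
  ∀ i j, polar Q (e i) (e j) = if i = j then 2 else 0

theorem ON.Q_eq (h2 : (2 : F) ≠ 0) {α : Type*} [DecidableEq α] {e : α → ι → F} (h : ON Q e) (i : α) :
    Q (e i) = 1 := by
  have h1 := h i i
  rw [if_pos rfl, polar_self, two_nsmul, ← two_mul] at h1
  exact mul_left_cancel₀ h2 (h1.trans (mul_one 2).symm)

theorem ON.linearIndependent (h2 : (2 : F) ≠ 0) {α : Type*} [Fintype α] [DecidableEq α] {e : α → ι → F}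
    (h : ON Q e) : LinearIndependent F e := by
  rw [Fintype.linearIndependent_iff]
  intro g hg j
  have h1 := congrArg (polarBilin Q (e j)) hg
  rw [map_sum, map_zero] at h1
  simp only [map_smul, polarBilin_apply_apply, h j _, smul_eq_mul, mul_ite, mul_zero, Finset.sum_ite_eq,
    Finset.mem_univ, if_true] at h1
  exact (mul_eq_zero.1 h1).resolve_right h2

/-- Non-degeneracy on a subspace. -/
def NdOn (Q : QuadraticForm F (ι → F)) (U : Submodule F (ι → F)) : Prop :=
  ∀ u ∈ U, (∀ v ∈ U, polar Q u v = 0) → u = 0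

theorem ndOn_top (hQ : (polarBilin Q).Nondegenerate) : NdOn Q ⊤ := fun u _ h => hQ.1 u fun v => h v trivial

/-- The orthogonal complement inside a subspace. -/
def perpIn (Q : QuadraticForm F (ι → F)) (U : Submodule F (ι → F)) (v w : ι → F) : Submodule F (ι → F) :=
  U ⊓ LinearMap.ker (polarBilin Q v) ⊓ LinearMap.ker (polarBilin Q w)

theorem mem_perpIn {U : Submodule F (ι → F)} {v w x : ι → F} :
    x ∈ perpIn Q U v w ↔ x ∈ U ∧ polar Q v x = 0 ∧ polar Q w x = 0 := by
  simp [perpIn, and_assoc]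

/-- Splitting off an orthonormal pair. -/
theorem perpIn_facts (h2 : (2 : F) ≠ 0) {U : Submodule F (ι → F)} (hU : NdOn Q U) {v w : ι → F} (hv : v ∈ U)
    (hw : w ∈ U) (hv1 : Q v = 1) (hw1 : Q w = 1) (hvw : polar Q v w = 0) :
    NdOn Q (perpIn Q U v w) ∧ finrank F U ≤ finrank F (perpIn Q U v w) + 2 := by
  have hvv : polar Q v v = 2 := by rw [polar_self, hv1, two_nsmul, one_add_one_eq_two]
  have hww : polar Q w w = 2 := by rw [polar_self, hw1, two_nsmul, one_add_one_eq_two]
  have hwv : polar Q w v = 0 := by rw [polar_comm, hvw]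
  have hproj : ∀ x ∈ U, x - ((2 : F)⁻¹ * polar Q v x) • v - ((2 : F)⁻¹ * polar Q w x) • w ∈ perpIn Q U v w := by
    intro x hx
    refine mem_perpIn.2 ⟨sub_mem (sub_mem hx (U.smul_mem _ hv)) (U.smul_mem _ hw), ?_, ?_⟩
    · simp only [polar_sub_right, polar_smul_right, hvv, hvw, smul_eq_mul]
      field_simp
      ring
    · simp only [polar_sub_right, polar_smul_right, hww, hwv, smul_eq_mul]
      field_simp
      ring
  refine ⟨fun u hu h => hU u (mem_perpIn.1 hu).1 fun x hx => ?_, ?_⟩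
  · have h1 := h _ (hproj x hx)
    obtain ⟨-, hu1, hu2⟩ := mem_perpIn.1 hu
    rw [polar_comm] at hu1 hu2
    simpa [polar_sub_right, polar_smul_right, hu1, hu2] using h1
  · have hle : U ≤ perpIn Q U v w ⊔ Submodule.span F {v, w} := fun x hx =>
      Submodule.mem_sup.2 ⟨_, hproj x hx, _,
        Submodule.mem_span_pair.2 ⟨(2 : F)⁻¹ * polar Q v x, (2 : F)⁻¹ * polar Q w x, rfl⟩, by abel⟩
    classical
    have h3 : finrank F (Submodule.span F ({v, w} : Set (ι → F))) ≤ 2 := by
      have h4 : ({v, w} : Set (ι → F)) = (({v, w} : Finset (ι → F)) : Set (ι → F)) := by simp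
      rw [h4]
      exact (finrank_span_finset_le_card _).trans Finset.card_le_two
    have := Submodule.finrank_mono hle
    have := Submodule.finrank_add_le_finrank_add_finrank (perpIn Q U v w) (Submodule.span F ({v, w} : Set (ι → F)))
    omega

theorem exists_aniso_mem (h2 : (2 : F) ≠ 0) {U : Submodule F (ι → F)} (hU : NdOn Q U) (hne : 0 < finrank F U) :
    ∃ v ∈ U, Q v ≠ 0 := by
  by_contra hall
  push Not at hall
  have hbot : U = ⊥ := (Submodule.eq_bot_iff U).2 fun u hu => hU u hu fun v hv => by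
    simp [polar, hall u hu, hall v hv, hall _ (add_mem hu hv)]
  rw [hbot, finrank_bot] at hne
  omega

/-- A form non-degenerate on a subspace of dimension two takes every value there. -/
theorem exists_value_mem (h2 : (2 : F) ≠ 0) {U : Submodule F (ι → F)} (hU : NdOn Q U) (hn : 2 ≤ finrank F U) (c : F) :
    ∃ v ∈ U, Q v = c := by
  obtain ⟨v, hv, hv0⟩ := exists_aniso_mem h2 hU (by omega)
  obtain ⟨w, hw, hvw, hw0⟩ : ∃ w ∈ U, polar Q v w = 0 ∧ Q w ≠ 0 := by
    set U' := U ⊓ LinearMap.ker (polarBilin Q v) with hU'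
    have hvv : polar Q v v = 2 * Q v := by rw [polar_self, two_nsmul, two_mul]
    have hproj : ∀ x ∈ U, x - (polar Q v x / (2 * Q v)) • v ∈ U' := fun x hx =>
      ⟨sub_mem hx (U.smul_mem _ hv), by
        simp [polar_sub_right, polar_smul_right, hvv, div_mul_cancel₀ _ (mul_ne_zero h2 hv0)]⟩
    have hnd : NdOn Q U' := fun u hu h => hU u hu.1 fun x hx => by
      have h1 := h _ (hproj x hx)
      have h3 : polar Q u v = 0 := (polar_comm _ _ _).trans hu.2
      simpa [polar_sub_right, polar_smul_right, h3] using h1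
    have hpos : 0 < finrank F U' := by
      by_contra h0
      have hbot : U' = ⊥ := Submodule.finrank_eq_zero.1 (by omega)
      have hle : U ≤ F ∙ v := fun x hx => Submodule.mem_span_singleton.2
        ⟨polar Q v x / (2 * Q v), (sub_eq_zero.1 (by simpa [hbot] using hproj x hx)).symm⟩
      have := Submodule.finrank_mono hle
      rw [finrank_span_singleton (fun h => hv0 (by rw [h, QuadraticMap.map_zero]))] at this
      omega
    obtain ⟨w, hw, hw0⟩ := exists_aniso_mem h2 hnd hpos
    exact ⟨w, hw.1, hw.2, hw0⟩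
  obtain ⟨a, b, hab⟩ := exists_binary_eq h2 hv0 hw0 c
  refine ⟨a • v + b • w, add_mem (U.smul_mem _ hv) (U.smul_mem _ hw), ?_⟩
  rw [QuadraticMap.map_add Q, QuadraticMap.map_smul, QuadraticMap.map_smul, polar_smul_left, polar_smul_right, hvw]
  simp only [smul_eq_mul, mul_zero, add_zero]
  linear_combination hab

/-- The matrix of the generator on a plane of an adapted frame. -/
structure IsFrame (θ : Matrix ι ι F) {k : ℕ} (e : Fin k × Fin 2 → ι → F) (a c : Fin k → F) : Prop where
  zero : ∀ i, θ *ᵥ e (i, 0) = a i • e (i, 0) + c i • e (i, 1)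
  one : ∀ i, θ *ᵥ e (i, 1) = c i • e (i, 0) - a i • e (i, 1)

theorem ON.cons (h2 : (2 : F) ≠ 0) {k : ℕ} {e : Fin k × Fin 2 → ι → F} (he : ON Q e) {v w : ι → F}
    (hv : Q v = 1) (hw : Q w = 1) (hvw : polar Q v w = 0)
    (h : ∀ p, polar Q v (e p) = 0 ∧ polar Q w (e p) = 0) :
    ON Q (fun p : Fin (k + 1) × Fin 2 => Fin.cons (α := fun _ => Fin 2 → ι → F) ![v, w] (fun i s => e (i, s)) p.1 p.2) := by
  have hvv : polar Q v v = 2 := by rw [polar_self, hv, two_nsmul, one_add_one_eq_two]
  have hww : polar Q w w = 2 := by rw [polar_self, hw, two_nsmul, one_add_one_eq_two]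
  rintro ⟨i, s⟩ ⟨j, t⟩
  induction i using Fin.cases <;> induction j using Fin.cases
  · fin_cases s <;> fin_cases t <;> simp [hvv, hww, hvw, polar_comm _ w v]
  · fin_cases s <;> simp [(h _).1, (h _).2, (Fin.succ_ne_zero _).symm]
  · rename_i i
    fin_cases t <;> simp [polar_comm _ (e (i, s)), (h _).1, (h _).2]
  · rename_i i j
    simp [he (i, s) (j, t)]

namespace Gen

/-- A unit vector whose orbit under the field spans a plane with square determinant. -/
theorem exists_good (S : Gen Q K θ ω) {U : Submodule F (ι → F)} (hU : NdOn Q U) (hθU : ∀ u ∈ U, θ *ᵥ u ∈ U)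
    (hn : 4 ≤ finrank F U) :
    ∃ v ∈ U, Q v = 1 ∧ ∃ γ : F, γ ≠ 0 ∧ 4 * ω - polar Q v (θ *ᵥ v) ^ 2 = γ ^ 2 := by
  have h2 := S.two
  obtain ⟨v1, hv1, hq1⟩ := exists_aniso_mem h2 hU (by omega)
  set β1 := polar Q v1 (θ *ᵥ v1) with hβ1
  have hQθ : ∀ u, Q (θ *ᵥ u) = ω * Q u := fun u => mul_left_cancel₀ h2 (by
    have h := S.adj u (θ *ᵥ u)
    rw [S.sq, polar_self, polar_smul_right, polar_self] at h
    simp only [two_nsmul, smul_eq_mul] at h
    linear_combination h)
  set D := 4 * ω * (Q v1) ^ 2 - β1 ^ 2 with hD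
  have hD0 : D ≠ 0 := fun h => S.nonsq ⟨β1 / (2 * Q v1), by field_simp; linear_combination h⟩
  set P := perpIn Q U v1 (θ *ᵥ v1) with hP
  have hproj : ∀ x ∈ U, ∃ a b : F, x - a • v1 - b • (θ *ᵥ v1) ∈ P := fun x hx => by
    refine ⟨(2 * ω * Q v1 * polar Q v1 x - β1 * polar Q (θ *ᵥ v1) x) / D,
      (2 * Q v1 * polar Q (θ *ᵥ v1) x - β1 * polar Q v1 x) / D,
      mem_perpIn.2 ⟨sub_mem (sub_mem hx (U.smul_mem _ hv1)) (U.smul_mem _ (hθU _ hv1)), ?_, ?_⟩⟩
    · rw [polar_sub_right, polar_sub_right, polar_smul_right, polar_smul_right, polar_self, ← hβ1]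
      simp only [two_nsmul, smul_eq_mul]
      field_simp
      rw [hD]; ring
    · rw [polar_sub_right, polar_sub_right, polar_smul_right, polar_smul_right, polar_self, hQθ,
        polar_comm Q _ v1, ← hβ1]
      simp only [two_nsmul, smul_eq_mul]
      field_simp
      rw [hD]; ring
  have hPnd : NdOn Q P := fun u hu h => hU u (mem_perpIn.1 hu).1 fun x hx => by
    obtain ⟨a, b, hab⟩ := hproj x hx
    have h1 := h _ hab
    obtain ⟨-, hu1, hu2⟩ := mem_perpIn.1 hu
    rw [polar_comm] at hu1 hu2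
    simpa [polar_sub_right, polar_smul_right, hu1, hu2] using h1
  have hPpos : 0 < finrank F P := by
    by_contra h0
    have hbot : P = ⊥ := Submodule.finrank_eq_zero.1 (by omega)
    classical
    have hle : U ≤ Submodule.span F (({v1, θ *ᵥ v1} : Finset (ι → F)) : Set (ι → F)) := fun x hx => by
      obtain ⟨a, b, hab⟩ := hproj x hx
      rw [hbot, Submodule.mem_bot] at hab
      rw [Finset.coe_pair, Submodule.mem_span_pair]
      exact ⟨a, b, by linear_combination (norm := module) -hab⟩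
    have h1 := Submodule.finrank_mono hle
    have h3 := (finrank_span_finset_le_card (R := F) ({v1, θ *ᵥ v1} : Finset (ι → F))).trans Finset.card_le_two
    rw [Set.finrank] at h3
    omega
  obtain ⟨v2, hv2, hq2⟩ := exists_aniso_mem h2 hPnd hPpos
  obtain ⟨hv2U, h12, hθ12⟩ := mem_perpIn.1 hv2
  set β2 := polar Q v2 (θ *ᵥ v2) with hβ2
  -- the field of coordinates
  haveI : Fact (∀ t : F, t ^ 2 ≠ ω + 0 * t) := ⟨fun t h => S.nonsq ⟨t, by linear_combination -h⟩⟩
  haveI : Finite (QuadraticAlgebra F ω 0) := Finite.of_equiv _ (QuadraticAlgebra.equivProd ω 0).symm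
  have hE2 : (2 : QuadraticAlgebra F ω 0) ≠ 0 := fun h => h2 (by
    have h' : algebraMap F (QuadraticAlgebra F ω 0) 2 = algebraMap F (QuadraticAlgebra F ω 0) 0 := by
      rw [map_ofNat, map_zero, h]
    exact (algebraMap F (QuadraticAlgebra F ω 0)).injective h')
  obtain ⟨β, γ, hβγ⟩ := exists_binary_eq h2 (one_ne_zero : (1 : F) ≠ 0) one_ne_zero (4 * ω)
  have hγ : γ ≠ 0 := fun h0 => S.nonsq ⟨β / 2, by rw [h0] at hβγ; field_simp; linear_combination -hβγ⟩
  obtain ⟨x, y, hxy⟩ := exists_binary_eq hE2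
    (a := (⟨β1, 2 * Q v1⟩ : QuadraticAlgebra F ω 0)) (b := ⟨β2, 2 * Q v2⟩)
    (fun h => mul_ne_zero h2 hq1 (congrArg QuadraticAlgebra.im h))
    (fun h => mul_ne_zero h2 hq2 (congrArg QuadraticAlgebra.im h)) ⟨β, 2⟩
  have hre := congrArg QuadraticAlgebra.re hxy
  have him := congrArg QuadraticAlgebra.im hxy
  simp only [QuadraticAlgebra.re_add, QuadraticAlgebra.re_mul, QuadraticAlgebra.im_add,
    QuadraticAlgebra.im_mul] at hre him
  refine ⟨(x.re • v1 + x.im • (θ *ᵥ v1)) + (y.re • v2 + y.im • (θ *ᵥ v2)),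
    add_mem (add_mem (U.smul_mem _ hv1) (U.smul_mem _ (hθU _ hv1)))
      (add_mem (U.smul_mem _ hv2U) (U.smul_mem _ (hθU _ hv2U))), ?_, γ, hγ, ?_⟩
  · refine mul_left_cancel₀ h2 ?_
    simp only [QuadraticMap.map_add Q, QuadraticMap.map_smul, polar_add_left, polar_add_right, polar_smul_left,
      polar_smul_right, smul_eq_mul, hQθ, ← hβ1, ← hβ2, h12, hθ12, ← S.adj v1 v2,
      show polar Q (θ *ᵥ v1) (θ *ᵥ v2) = 0 by rw [S.adj, S.sq, polar_smul_right, h12, smul_zero]]
    linear_combination him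
  · have hcross : polar Q v1 (θ *ᵥ v2) = 0 := by rw [← S.adj, hθ12]
    have hb : polar Q ((x.re • v1 + x.im • (θ *ᵥ v1)) + (y.re • v2 + y.im • (θ *ᵥ v2)))
        (θ *ᵥ ((x.re • v1 + x.im • (θ *ᵥ v1)) + (y.re • v2 + y.im • (θ *ᵥ v2)))) = β := by
      simp only [Matrix.mulVec_add, Matrix.mulVec_smul, S.sq, polar_add_left, polar_add_right, polar_smul_left,
        polar_smul_right, smul_eq_mul, polar_self, two_nsmul, hQθ, polar_comm Q (θ *ᵥ v1) v1,
        polar_comm Q (θ *ᵥ v2) v2, polar_comm Q v2 v1, polar_comm Q v2 (θ *ᵥ v1), polar_comm Q (θ *ᵥ v2) v1,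
        polar_comm Q (θ *ᵥ v2) (θ *ᵥ v1), ← hβ1, ← hβ2, h12, hθ12, hcross,
        show polar Q (θ *ᵥ v1) (θ *ᵥ v2) = 0 by rw [S.adj, S.sq, polar_smul_right, h12, smul_zero]]
      linear_combination hre
    rw [hb]
    linear_combination -hβγ

/-- Orthonormal planes invariant under the field. -/
theorem exists_frame (S : Gen Q K θ ω) : ∀ (k : ℕ) (U : Submodule F (ι → F)), NdOn Q U →
    (∀ u ∈ U, θ *ᵥ u ∈ U) → 2 * k + 2 ≤ finrank F U →
    ∃ (e : Fin k × Fin 2 → ι → F) (a c : Fin k → F), ON Q e ∧ (∀ p, e p ∈ U) ∧ IsFrame θ e a c := by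
  intro k
  induction k with
  | zero =>
    intro U _ _ _
    exact ⟨fun p => p.1.elim0, Fin.elim0, Fin.elim0, fun p => p.1.elim0, fun p => p.1.elim0,
      ⟨fun i => i.elim0, fun i => i.elim0⟩⟩
  | succ k ih =>
    intro U hU hθU hn
    have h2 := S.two
    obtain ⟨v, hv, hv1, γ, hγ, hβγ⟩ := S.exists_good hU hθU (by omega)
    set β := polar Q v (θ *ᵥ v) with hβ
    set w := (2 / γ) • (θ *ᵥ v - (β / 2) • v) with hw
    have hQθ : Q (θ *ᵥ v) = ω := mul_left_cancel₀ h2 (by
      have h := S.adj v (θ *ᵥ v)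
      rw [S.sq, polar_self, polar_smul_right, polar_self, hv1] at h
      simp only [two_nsmul, smul_eq_mul] at h
      linear_combination h)
    have hwU : w ∈ U := U.smul_mem _ (sub_mem (hθU v hv) (U.smul_mem _ hv))
    have hvw : polar Q v w = 0 := by
      rw [hw, polar_smul_right, polar_sub_right, polar_smul_right, polar_self, hv1, ← hβ]
      simp only [two_nsmul, smul_eq_mul]
      field_simp
      ring
    have hw1 : Q w = 1 := by
      rw [hw, QuadraticMap.map_smul, sub_eq_add_neg, ← neg_smul, QuadraticMap.map_add Q, QuadraticMap.map_smul, hv1,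
        hQθ, polar_smul_right, polar_comm, ← hβ]
      simp only [smul_eq_mul]
      field_simp
      linear_combination hβγ
    have hθv : θ *ᵥ v = (β / 2) • v + (γ / 2) • w := by
      rw [hw, smul_smul, show γ / 2 * (2 / γ) = 1 by field_simp, one_smul]
      abel
    have hθw : θ *ᵥ w = (γ / 2) • v - (β / 2) • w := by
      rw [hw, Matrix.mulVec_smul, Matrix.mulVec_sub, Matrix.mulVec_smul, S.sq]
      match_scalars <;> field_simp <;> first | linear_combination hβγ | ring
    obtain ⟨hnd', hn'⟩ := perpIn_facts h2 hU hv hwU hv1 hw1 hvw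
    obtain ⟨e, a, c, he, hemem, hfr⟩ := ih (perpIn Q U v w) hnd' (fun u hu => by
      obtain ⟨hu', h1, h3⟩ := mem_perpIn.1 hu
      refine mem_perpIn.2 ⟨hθU u hu', ?_, ?_⟩
      · rw [← S.adj, hθv, polar_add_left, polar_smul_left, polar_smul_left, h1, h3, smul_zero, smul_zero, add_zero]
      · rw [← S.adj, hθw, polar_sub_left, polar_smul_left, polar_smul_left, h1, h3, smul_zero, smul_zero,
          sub_zero]) (by omega)
    refine ⟨_, Fin.cons (β / 2) a, Fin.cons (γ / 2) c,
      he.cons h2 hv1 hw1 hvw fun p => ⟨(mem_perpIn.1 (hemem p)).2.1, (mem_perpIn.1 (hemem p)).2.2⟩, ?_, ?_⟩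
    · rintro ⟨i, s⟩
      induction i using Fin.cases
      · fin_cases s <;> simp [hv, hwU]
      · simp [(mem_perpIn.1 (hemem _)).1]
    · constructor <;> intro i <;> induction i using Fin.cases
      · simpa using hθv
      · simp [hfr.zero]
      · simpa using hθw
      · simp [hfr.one]

end Gen

/-- Orthonormal pairs turned by an isometry of square minus one. -/
theorem exists_turn_pairs (h2 : (2 : F) ≠ 0) (x : Module.End F (ι → F)) (hxQ : ∀ v, Q (x v) = Q v)
    (hxx : ∀ v, x (x v) = -v) : ∀ (k : ℕ) (U : Submodule F (ι → F)), NdOn Q U → (∀ u ∈ U, x u ∈ U) →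
    2 * k ≤ finrank F U →
    ∃ e : Fin k × Fin 2 → ι → F, ON Q e ∧ (∀ p, e p ∈ U) ∧ (∀ i, x (e (i, 0)) = e (i, 1)) := by
  have hB : ∀ u v, polar Q (x u) (x v) = polar Q u v := fun u v => by
    simp only [polar, ← map_add, hxQ]
  have hskew : ∀ v, polar Q v (x v) = 0 := fun v => by
    have h := hB v (x v)
    rw [hxx, polar_neg_right, polar_comm] at h
    exact (mul_eq_zero.1 (by linear_combination -h : (2 : F) * polar Q v (x v) = 0)).resolve_left h2
  intro k
  induction k with
  | zero => exact fun U _ _ _ => ⟨fun p => p.1.elim0, fun p => p.1.elim0, fun p => p.1.elim0, fun i => i.elim0⟩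
  | succ k ih =>
    intro U hU hxU hn
    obtain ⟨v0, hv0, hq0⟩ := exists_aniso_mem h2 hU (by omega)
    obtain ⟨a, b, hab⟩ := exists_binary_eq h2 hq0 hq0 1
    set v := a • v0 + b • x v0 with hv
    have hvU : v ∈ U := add_mem (U.smul_mem _ hv0) (U.smul_mem _ (hxU _ hv0))
    have hv1 : Q v = 1 := by
      rw [hv, QuadraticMap.map_add Q, QuadraticMap.map_smul, QuadraticMap.map_smul, hxQ, polar_smul_left,
        polar_smul_right, hskew]
      simp only [smul_eq_mul, mul_zero, add_zero]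
      linear_combination hab
    have hw1 : Q (x v) = 1 := by rw [hxQ, hv1]
    obtain ⟨hnd', hn'⟩ := perpIn_facts h2 hU hvU (hxU _ hvU) hv1 hw1 (hskew v)
    obtain ⟨e, he, hemem, hxe⟩ := ih (perpIn Q U v (x v)) hnd' (fun u hu => by
      obtain ⟨hu', h1, h3⟩ := mem_perpIn.1 hu
      refine mem_perpIn.2 ⟨hxU u hu', ?_, ?_⟩
      · rw [← neg_neg v, ← hxx v, polar_neg_left, hB, h3, neg_zero]
      · rw [hB, h1]) (by omega)
    refine ⟨_, he.cons h2 hv1 hw1 (hskew v) fun p => ⟨(mem_perpIn.1 (hemem p)).2.1, (mem_perpIn.1 (hemem p)).2.2⟩,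
      ?_, fun i => ?_⟩
    · rintro ⟨i, s⟩
      induction i using Fin.cases
      · fin_cases s <;> simp [hvU, hxU _ hvU]
      · simp [(mem_perpIn.1 (hemem _)).1]
    · induction i using Fin.cases
      · simp
      · simp [hxe]

/-- An orthogonal family filling a subspace, of unit length but for the last vector. -/
theorem exists_almost_on (h2 : (2 : F) ≠ 0) : ∀ (m : ℕ) (U : Submodule F (ι → F)), NdOn Q U → finrank F U = m + 1 →
    ∃ f : Fin (m + 1) → ι → F, (∀ j, f j ∈ U) ∧ (∀ j, Q (f j) ≠ 0) ∧ (∀ j l, j ≠ l → polar Q (f j) (f l) = 0) ∧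
      (∀ j : Fin m, Q (f j.castSucc) = 1) := by
  intro m
  induction m with
  | zero =>
    intro U hU hn
    obtain ⟨v, hv, hv0⟩ := exists_aniso_mem h2 hU (by omega)
    exact ⟨fun _ => v, fun _ => hv, fun _ => hv0, fun j l h => absurd (Fin.ext (by omega)) h, fun j => j.elim0⟩
  | succ m ih =>
    intro U hU hn
    obtain ⟨v, hv, hv1⟩ := exists_value_mem h2 hU (by omega) 1
    have hvv : polar Q v v = 2 := by rw [polar_self, hv1, two_nsmul, one_add_one_eq_two]
    set U' := U ⊓ LinearMap.ker (polarBilin Q v) with hU'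
    have hproj : ∀ x ∈ U, x - ((2 : F)⁻¹ * polar Q v x) • v ∈ U' := fun x hx =>
      ⟨sub_mem hx (U.smul_mem _ hv), by simp [polar_sub_right, polar_smul_right, hvv, mul_comm, h2]⟩
    have hnd : NdOn Q U' := fun u hu h => hU u hu.1 fun x hx => by
      have h1 := h _ (hproj x hx)
      have h3 : polar Q u v = 0 := (polar_comm _ _ _).trans hu.2
      simpa [polar_sub_right, polar_smul_right, h3] using h1
    have hsup : U' ⊔ (F ∙ v) = U := le_antisymm (sup_le inf_le_left ((Submodule.span_singleton_le_iff_mem _ _).2 hv))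
      fun x hx => Submodule.mem_sup.2 ⟨_, hproj x hx, _,
        Submodule.mem_span_singleton.2 ⟨(2 : F)⁻¹ * polar Q v x, rfl⟩, sub_add_cancel _ _⟩
    have hdisj : U' ⊓ (F ∙ v) = ⊥ := (Submodule.eq_bot_iff _).2 fun z ⟨hz, hz'⟩ => by
      obtain ⟨t, rfl⟩ := Submodule.mem_span_singleton.1 hz'
      have h1 : polar Q v (t • v) = 0 := hz.2
      rw [polar_smul_right, hvv, smul_eq_mul] at h1
      rw [(mul_eq_zero.1 h1).resolve_right h2, zero_smul]
    have hdim := Submodule.finrank_sup_add_finrank_inf_eq U' (F ∙ v)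
    rw [hsup, hdisj, finrank_bot, finrank_span_singleton (fun h => by simp [h] at hv1), hn] at hdim
    obtain ⟨f, hf, hf0, hfo, hf1⟩ := ih U' hnd (by omega)
    refine ⟨Fin.cons v f, fun j => ?_, fun j => ?_, fun j l hjl => ?_, fun j => ?_⟩
    · induction j using Fin.cases
      · exact hv
      · simpa using (hf _).1
    · induction j using Fin.cases
      · simp [hv1]
      · simpa using hf0 _
    · induction j using Fin.cases <;> induction l using Fin.cases
      · exact absurd rfl hjl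
      · simpa using (hf _).2
      · rw [polar_comm]; simpa using (hf _).2
      · simpa using hfo _ _ (fun h => hjl (congrArg Fin.succ h))
    · induction j using Fin.cases
      · simpa using hv1
      · rw [Fin.castSucc_succ, Fin.cons_succ]; exact hf1 _

end CfsgLib.FieldExtOrth
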