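import Mathlib
import Cfsg.Agent.Lib.FieldExtOrth.Frames
import Cfsg.Agent.Lib.Forms.WittQuadratic

/-!
Elements of square plus or minus one of an orthogonal commutator group are conjugate into the normaliser of a
quadratic field of self-adjoint matrices.
-/

set_option autoImplicit false
set_option linter.unusedSectionVars false

namespace CfsgLib.FieldExtOrth

open Module QuadraticMap CfsgLib.OrthGen
open scoped Matrix

variable {F : Type*} [Field F] [Fintype F] {ι : Type} [Fintype ι] [DecidableEq ι]
  {Q : QuadraticForm F (ι → F)} {K : Subalgebra F (Matrix ι ι F)} {θ : Matrix ι ι F} {ω : F}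

theorem detHom_cases (h2 : (2 : F) ≠ 0) (hQ : (polarBilin Q).Nondegenerate) (g : Cfsg.isometryGroup F (⇑Q)) :
    Classes.detHom Q g = 1 ∨ Classes.detHom Q g = -1 := by
  have hg : g ∈ Subgroup.closure (reflSet Q) := by rw [closure_reflSet h2 hQ]; trivial
  induction hg using Subgroup.closure_induction with
  | mem x hx =>
    obtain ⟨v, hv, rfl⟩ := hx
    exact .inr (Classes.detHom_refl Q hv)
  | one => exact .inl (map_one _)
  | mul a b _ _ ha hb => rcases ha with ha | ha <;> rcases hb with hb | hb <;> simp [map_mul, ha, hb]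
  | inv a _ ha =>
    have h : Classes.detHom Q a⁻¹ * Classes.detHom Q a = 1 := by rw [← map_mul, inv_mul_cancel, map_one]
    rcases ha with ha | ha <;> rw [ha] at h
    · exact .inl (by linear_combination h)
    · exact .inr (by linear_combination -h)

/-- Moving an isometry into `Ω` by two fixed corrections. -/
theorem exists_adjust (h2 : (2 : F) ≠ 0) (hQ : (polarBilin Q).Nondegenerate) (hn : 2 ≤ Fintype.card ι)
    (g R T : Cfsg.isometryGroup F (⇑Q)) (hR : Classes.detHom Q R = -1) (hT : Classes.detHom Q T = 1)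
    (hTs : spinSign Q 1 T = -1) :
    ∃ h t, (h = 1 ∨ h = R) ∧ (t = 1 ∨ t = T) ∧ g * h * t ∈ Cfsg.Omega F (⇑Q) := by
  obtain ⟨h, hh, hdet⟩ : ∃ h, (h = 1 ∨ h = R) ∧ Classes.detHom Q (g * h) = 1 := by
    rcases detHom_cases h2 hQ g with h | h
    · exact ⟨1, .inl rfl, by rw [mul_one, h]⟩
    · exact ⟨R, .inr rfl, by rw [map_mul, h, hR]; ring⟩
  rcases Int.units_eq_one_or (spinSign Q 1 (g * h)) with hs | hs
  · exact ⟨h, 1, hh, .inl rfl, by rw [mul_one]; exact (Classes.mem_omega_iff h2 hQ hn _).2 ⟨hdet, hs⟩⟩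
  · exact ⟨h, T, hh, .inr rfl, (Classes.mem_omega_iff h2 hQ hn _).2
      ⟨by rw [map_mul, hdet, hT, one_mul], by rw [map_mul, hs, hTs]; rfl⟩⟩

theorem ON.Q_sum (h2 : (2 : F) ≠ 0) {α : Type*} [Fintype α] [DecidableEq α] {e : α → ι → F} (h : ON Q e)
    (c : α → F) : Q (∑ p, c p • e p) = ∑ p, c p ^ 2 := by
  refine mul_left_cancel₀ h2 ?_
  rw [two_mul, ← two_nsmul, ← polar_self Q, Finset.mul_sum]
  show polarBilin Q _ _ = _
  simp only [map_sum, map_smul, LinearMap.sum_apply, LinearMap.smul_apply, polarBilin_apply_apply, smul_eq_mul,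
    h _ _, mul_ite, mul_zero, Finset.sum_ite_eq', Finset.mem_univ, if_true]
  exact Finset.sum_congr rfl fun p _ => by ring

/-- An isometry carrying one orthonormal family to another. -/
theorem exists_move (h2 : (2 : F) ≠ 0) (hQ : (polarBilin Q).Nondegenerate) {α : Type*} [Fintype α] [DecidableEq α]
    {e f : α → ι → F} (he : ON Q e) (hf : ON Q f) :
    ∃ g : Cfsg.isometryGroup F (⇑Q), ∀ p, act Q g (e p) = f p := by
  let b := Basis.span (he.linearIndependent h2)
  have hb : ∀ x : Submodule.span F (Set.range e), (x : ι → F) = ∑ p, b.repr x p • e p := fun x => by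
    conv_lhs => rw [← b.sum_repr x]
    simp [b]
  have hφ : ∀ x, b.constr F f x = ∑ p, b.repr x p • f p := fun x => b.constr_apply_fintype F f x
  obtain ⟨L, hL, hLe⟩ := Forms.witt_extension_quadratic Q hQ _ (b.constr F f) (by
    rw [injective_iff_map_eq_zero]
    intro x hx
    rw [hφ] at hx
    have h0 := Fintype.linearIndependent_iff.1 (hf.linearIndependent h2) _ hx
    exact b.repr.injective (Finsupp.ext fun p => by simp [h0 p])) fun x => by
      rw [hφ, hb, hf.Q_sum h2, he.Q_sum h2]
  refine ⟨mkIso Q (LinearMap.toMatrix' L.toLinearMap) (LinearMap.toMatrix' L.symm.toLinearMap)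
    (by rw [← LinearMap.toMatrix'_comp]; simp) (by rw [← LinearMap.toMatrix'_comp]; simp)
    (fun v => by rw [LinearMap.toMatrix'_mulVec]; exact hL v), fun p => ?_⟩
  rw [act, coe_mkIso, LinearMap.toMatrix'_mulVec]
  have h1 := hLe (b p)
  rw [Basis.constr_basis] at h1
  simpa [b] using h1

/-- Two isometries agreeing on a full orthonormal family are equal. -/
theorem ON.eq_of_act (h2 : (2 : F) ≠ 0) {α : Type*} [Fintype α] [DecidableEq α] {e : α → ι → F} (he : ON Q e)
    (hα : Fintype.card α = Fintype.card ι) (f g : Module.End F (ι → F)) (h : ∀ p, f (e p) = g (e p)) : f = g :=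
  LinearMap.ext_on_range ((he.linearIndependent h2).span_eq_top_of_card_eq_finrank'
    (by rw [hα, Module.finrank_fintype_fun_eq_card])) h

/-- The action of an isometry as a linear map. -/
def lin (g : Cfsg.isometryGroup F (⇑Q)) : Module.End F (ι → F) :=
  Matrix.toLin' ((g : Matrix.GeneralLinearGroup ι F) : Matrix ι ι F)

@[simp] theorem lin_apply (g : Cfsg.isometryGroup F (⇑Q)) (v : ι → F) : lin g v = act Q g v := rfl

/-- A product of reflections in pairwise orthogonal vectors. -/
theorem act_prod_orth : ∀ {m : ℕ} (f : Fin m → ι → F) (hf0 : ∀ j, Q (f j) ≠ 0),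
    (∀ j l, j ≠ l → polar Q (f j) (f l) = 0) → ∀ v,
      act Q (List.ofFn fun j => refl Q (hf0 j)).prod v =
        v - ∑ j, ((Q (f j))⁻¹ * polar Q (f j) v) • f j := by
  intro m
  induction m with
  | zero => intro f hf0 _ v; simp [act_one]
  | succ m ih =>
    intro f hf0 ho v
    rw [List.ofFn_succ, List.prod_cons, act_mul, ih (fun j => f j.succ) (fun j => hf0 j.succ)
      (fun j l h => ho _ _ (fun e => h (Fin.succ_injective _ e))), act_refl, Fin.sum_univ_succ]
    have h : pf Q (f 0) (v - ∑ j : Fin m, ((Q (f j.succ))⁻¹ * polar Q (f j.succ) v) • f j.succ) =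
        polar Q (f 0) v := by
      show polarBilin Q _ _ = _
      rw [map_sub, map_sum, Finset.sum_eq_zero (fun j _ => by
        rw [map_smul, polarBilin_apply_apply, ho 0 _ (Fin.succ_ne_zero _).symm, smul_zero]), sub_zero]
      rfl
    rw [h]
    abel

theorem act_refl_comm {y : Cfsg.isometryGroup F (⇑Q)} {v : ι → F} (hv : Q v ≠ 0) (hy : act Q y v = v) :
    y * refl Q hv = refl Q hv * y := by
  refine ext_act fun x => ?_
  rw [act_mul, act_mul, act_refl, act_refl, act_sub, act_smul, hy]
  congr 3
  conv_rhs => rw [← hy, pf_act]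

theorem act_neg (g : Cfsg.isometryGroup F (⇑Q)) (w : ι → F) : act Q g (-w) = -act Q g w := by
  rw [← neg_one_smul F w, act_smul, neg_one_smul]

namespace Gen

/-- An involution of `Ω` is conjugate into the normaliser. -/
theorem split_case (S : Gen Q K θ ω) {d : ℕ} (hι : Fintype.card ι = 2 * d) (hd : 2 ≤ d)
    (X : Cfsg.isometryGroup F (⇑Q)) (hX : X ∈ Cfsg.Omega F (⇑Q)) (hxx : ∀ v, act Q X (act Q X v) = v)
    (hns1 : ∃ v, act Q X v ≠ v) (hns2 : ∃ v, act Q X v ≠ -v) :
    ∃ g ∈ Cfsg.Omega F (⇑Q), ((g⁻¹ * X * g : Cfsg.isometryGroup F (⇑Q)) : GL ι F) ∈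
      Cfsg.Geo.subalgebraNormalizer K := by
  classical
  have h2 := S.two
  let U : Submodule F (ι → F) := LinearMap.ker (lin X + 1)
  have hU : ∀ v, v ∈ U ↔ act Q X v = -v := fun v => by
    rw [LinearMap.mem_ker, LinearMap.add_apply, lin_apply, Module.End.one_apply, add_eq_zero_iff_eq_neg]
  have hfix : ∀ u ∈ U, ∀ w, act Q X w = w → polar Q u w = 0 := fun u hu w hw => by
    have h := pf_act X u w
    rw [(hU u).1 hu, hw, pf, QuadraticMap.polar_neg_left] at h
    exact (mul_eq_zero.1 (by linear_combination -h : (2 : F) * polar Q u w = 0)).resolve_left h2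
  have hdec : ∀ v, (2 : F)⁻¹ • (v - act Q X v) ∈ U ∧
      act Q X ((2 : F)⁻¹ • (v + act Q X v)) = (2 : F)⁻¹ • (v + act Q X v) := fun v =>
    ⟨(hU _).2 (by rw [act_smul, act_sub, hxx]; module), by rw [act_smul, act_add, hxx]; module⟩
  have hsplit : ∀ v, (2 : F)⁻¹ • (v - act Q X v) + (2 : F)⁻¹ • (v + act Q X v) = v := fun v => by
    match_scalars <;> field_simp <;> ring
  have hnd : NdOn Q U := fun u hu h => S.nd.1 u fun v => by
    rw [polarBilin_apply_apply, ← hsplit v, polar_add_right, h _ (hdec v).1, hfix u hu _ (hdec v).2, add_zero]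
  obtain ⟨m, hm⟩ : ∃ m, finrank F U = m + 1 := by
    refine ⟨finrank F U - 1, (Nat.sub_add_cancel ?_).symm⟩
    by_contra h0
    have hbot : U = ⊥ := Submodule.finrank_eq_zero.1 (by omega)
    obtain ⟨v, hv⟩ := hns1
    have h1 := (hdec v).1
    rw [hbot, Submodule.mem_bot, smul_eq_zero, inv_eq_zero, sub_eq_zero] at h1
    exact hv (h1.resolve_left h2).symm
  obtain ⟨f, hfU, hf0, hfo, hf1⟩ := exists_almost_on h2 m U hnd hm
  have hli : LinearIndependent F f := by
    rw [Fintype.linearIndependent_iff]
    intro g hg j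
    have h1 := congrArg (polarBilin Q (f j)) hg
    rw [map_sum, map_zero, Finset.sum_eq_single j] at h1
    · rw [map_smul, smul_eq_mul, polarBilin_apply_apply, polar_self, two_nsmul, ← two_mul] at h1
      exact (mul_eq_zero.1 h1).resolve_right (mul_ne_zero h2 (hf0 j))
    · intro l _ hl; rw [map_smul, polarBilin_apply_apply, hfo j l hl.symm, smul_zero]
    · exact fun h => absurd (Finset.mem_univ j) h
  have hspanf : Submodule.span F (Set.range f) = U := Submodule.eq_of_le_of_finrank_eq
    (Submodule.span_le.2 (by rintro _ ⟨j, rfl⟩; exact hfU j))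
    (by rw [finrank_span_eq_card hli, Fintype.card_fin, hm])
  -- the involution is the product of the reflections
  have hXeq : X = (List.ofFn fun j => refl Q (hf0 j)).prod := by
    refine ext_act fun v => ?_
    rw [act_prod_orth f hf0 hfo]
    conv_lhs => rw [← hsplit v, act_add, (hdec v).2, (hU _).1 (hdec v).1]
    have hsum : ∑ j, ((Q (f j))⁻¹ * polar Q (f j) v) • f j = v - act Q X v := by
      have hmem : v - act Q X v - ∑ j, ((Q (f j))⁻¹ * polar Q (f j) v) • f j ∈ U := by
        refine sub_mem ?_ (sum_mem fun j _ => U.smul_mem _ (hfU j))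
        have := U.smul_mem (2 : F) (hdec v).1
        rwa [smul_smul, mul_inv_cancel₀ h2, one_smul] at this
      refine (sub_eq_zero.1 (hnd _ hmem fun u hu => ?_)).symm
      rw [← hspanf] at hu
      induction hu using Submodule.span_induction with
      | mem u hu =>
        obtain ⟨l, rfl⟩ := hu
        show polarBilin Q _ _ = 0
        simp only [map_sub, map_sum, map_smul, LinearMap.sub_apply, LinearMap.sum_apply, LinearMap.smul_apply,
          polarBilin_apply_apply, smul_eq_mul]
        rw [Finset.sum_eq_single l (fun j _ hj => by rw [hfo j l hj, mul_zero])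
          (fun h => absurd (Finset.mem_univ l) h)]
        have e1 : polar Q (act Q X v) (f l) = -polar Q v (f l) := by
          have h := pf_act X v (f l)
          rw [(hU _).1 (hfU l), pf, QuadraticMap.polar_neg_right] at h
          linear_combination -h
        rw [e1, polar_self, two_nsmul, polar_comm Q (f l) v]
        field_simp [hf0 l]
        ring
      | zero => exact polar_zero_right _ _
      | add a b _ _ ha hb => rw [polar_add_right, ha, hb, add_zero]
      | smul c a _ ha => rw [polar_smul_right, ha, smul_zero]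
    rw [hsum]
    match_scalars <;> field_simp <;> ring
  have hmem' := (Classes.mem_omega_iff h2 S.nd (by omega) X).1 hX
  have hne : (-1 : F) ≠ 1 := fun h => h2 (by linear_combination -h)
  have hm_odd : Odd m := by
    have hd := hmem'.1
    rw [hXeq, map_list_prod, List.map_ofFn, List.prod_ofFn] at hd
    simp only [Function.comp_apply, Classes.detHom_refl, Finset.prod_const, Finset.card_univ, Fintype.card_fin] at hd
    by_contra hev
    rw [pow_succ, (Nat.not_odd_iff_even.1 hev).neg_one_pow, one_mul] at hd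
    exact hne hd
  obtain ⟨s, hs⟩ : IsSquare (Q (f (Fin.last m))) := by
    have hd := hmem'.2
    rw [hXeq, map_list_prod, List.map_ofFn, List.prod_ofFn, Fin.prod_univ_castSucc] at hd
    simp only [Function.comp_apply] at hd
    rw [Finset.prod_congr rfl (fun j _ => (spinSign_refl h2 one_ne_zero (hf0 (Fin.castSucc j))).2 (by
      rw [hf1 j, div_one]; exact IsSquare.one)), Finset.prod_const, Finset.card_univ, Fintype.card_fin,
      hm_odd.neg_one_pow, neg_one_mul, neg_eq_iff_eq_neg, spinSign_refl h2 one_ne_zero] at hd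
    simpa [isSquare_inv] using hd
  have hs0 : s ≠ 0 := fun h => hf0 (Fin.last m) (by rw [hs, h, mul_zero])
  obtain ⟨k, hk⟩ : ∃ k, m + 1 = 2 * k := ⟨(m + 1) / 2, by obtain ⟨t, ht⟩ := hm_odd; omega⟩
  let f' : Fin (m + 1) → ι → F := Fin.snoc (fun j => f j.castSucc) (s⁻¹ • f (Fin.last m))
  have hf' : ON Q f' := by
    intro i j
    have hd : ∀ l, Q (f' l) = 1 := fun l => by
      induction l using Fin.lastCases
      · simp only [f', Fin.snoc_last, QuadraticMap.map_smul, hs, smul_eq_mul]; field_simp
      · simp [f', hf1]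
    by_cases hij : i = j
    · subst hij; rw [if_pos rfl, polar_self, hd, two_nsmul, one_add_one_eq_two]
    · rw [if_neg hij]
      induction i using Fin.lastCases <;> induction j using Fin.lastCases
      · exact absurd rfl hij
      · simp [f', polar_smul_left, hfo _ _ (Fin.castSucc_lt_last _).ne']
      · simp [f', polar_smul_right, hfo _ _ (Fin.castSucc_lt_last _).ne]
      · simp [f', hfo _ _ hij]
  let hI : Fin k × Fin 2 ≃ Fin (m + 1) := finProdFinEquiv.trans (finCongr (by omega))
  let h : Fin k × Fin 2 → ι → F := fun p => f' (hI p)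
  have hh : ON Q h := fun i j => by rw [hf']; simp [hI.injective.eq_iff]
  have hhU : ∀ p, act Q X (h p) = -h p := fun p => (hU _).1 (by
    show f' (hI p) ∈ U
    induction hI p using Fin.lastCases
    · simpa [f'] using U.smul_mem s⁻¹ (hfU _)
    · simp [f', hfU])
  have hhfix : ∀ w, (∀ p, polar Q (h p) w = 0) → act Q X w = w := fun w hw => by
    rw [hXeq, act_prod_orth f hf0 hfo, Finset.sum_eq_zero, sub_zero]
    intro j _
    have h1 := hw (hI.symm j)
    simp only [h, Equiv.apply_symm_apply] at h1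
    induction j using Fin.lastCases
    · simp only [f', Fin.snoc_last, polar_smul_left, smul_eq_mul, mul_eq_zero, inv_eq_zero, hs0, false_or] at h1
      simp [h1]
    · simp only [f', Fin.snoc_castSucc] at h1
      simp [h1]
  have hkd : k ≤ d - 1 := by
    by_contra hlt
    have hle : finrank F U ≤ Fintype.card ι :=
      (Submodule.finrank_le U).trans_eq (Module.finrank_fintype_fun_eq_card F)
    have hUtop : U = ⊤ := Submodule.eq_top_of_finrank_eq (by rw [Module.finrank_fintype_fun_eq_card]; omega)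
    obtain ⟨v, hv⟩ := hns2
    exact hv ((hU v).1 (hUtop ▸ Submodule.mem_top))
  -- the frame
  obtain ⟨e', a', c', he', -, hfr⟩ := S.exists_frame (d - 1) ⊤ (ndOn_top S.nd) (fun _ _ => trivial) (by
    rw [finrank_top, Module.finrank_fintype_fun_eq_card]; omega)
  let e : Fin k × Fin 2 → ι → F := fun p => e' (Fin.castLE hkd p.1, p.2)
  have he : ON Q e := fun i j => by rw [he']; simp [Prod.ext_iff, Fin.castLE_inj]
  obtain ⟨g0, hg0⟩ := exists_move h2 S.nd he hh
  set y := g0⁻¹ * X * g0 with hy
  have hye : ∀ p, act Q y (e p) = -e p := fun p => by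
    rw [hy, act_mul, act_mul, hg0, hhU, ← hg0]
    apply act_injective g0
    rw [act_act_inv, ← neg_one_smul F (act Q g0 (e p)), ← neg_one_smul F (e p), act_smul]
  have hyw : ∀ w, (∀ p, polar Q (e p) w = 0) → act Q y w = w := fun w hw => by
    rw [hy, act_mul, act_mul, hhfix _ fun p => by rw [← hg0]; exact (pf_act g0 _ _).trans (hw p), act_inv_act]
  have hproj : ∀ v p, polar Q (e p) (v - ∑ l, ((2 : F)⁻¹ * polar Q (e l) v) • e l) = 0 := fun v p => by
    show polarBilin Q _ _ = _
    simp only [map_sub, map_sum, map_smul, polarBilin_apply_apply, he p _, smul_eq_mul, mul_ite, mul_zero,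
      Finset.sum_ite_eq, Finset.mem_univ, if_true]
    field_simp; ring
  have hyv : ∀ v, act Q y v = v - ∑ p, polar Q (e p) v • e p := fun v => by
    have h1 := hyw _ (hproj v)
    rw [← lin_apply, map_sub, map_sum] at h1
    simp only [map_smul, lin_apply, hye] at h1
    simp only [smul_neg, Finset.sum_neg_distrib, sub_neg_eq_add] at h1
    rw [eq_sub_of_add_eq h1, sub_sub]
    congr 1
    rw [← Finset.sum_add_distrib]
    refine Finset.sum_congr rfl fun p _ => ?_
    rw [← add_smul]
    congr 1
    field_simp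
    ring
  have hyθ : ∀ v, act Q y (θ *ᵥ v) = θ *ᵥ act Q y v := fun v => by
    rw [hyv, hyv, Matrix.mulVec_sub, Matrix.mulVec_sum]
    congr 1
    rw [Fintype.sum_prod_type, Fintype.sum_prod_type]
    refine Finset.sum_congr rfl fun i _ => ?_
    simp only [Fin.sum_univ_two, Matrix.mulVec_smul, ← S.adj (e (i, _)) v, e, hfr.zero, hfr.one, polar_add_left,
      polar_sub_left, polar_smul_left, smul_eq_mul]
    module
  have hyN : ((y : Cfsg.isometryGroup F (⇑Q)) : GL ι F) ∈ Cfsg.Geo.subalgebraNormalizer K :=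
    S.mem_of_commute _ hyθ
  -- corrections outside the planes
  let L : (ι → F) →ₗ[F] (Fin k × Fin 2 → F) := LinearMap.pi fun p => polarBilin Q (e p)
  have hL : ∀ w, w ∈ LinearMap.ker L ↔ ∀ p, polar Q (e p) w = 0 := fun w =>
    ⟨fun h p => congrFun h p, fun h => funext h⟩
  have hWnd : NdOn Q (LinearMap.ker L) := fun u hu h => S.nd.1 u fun v => by
    have h1 := h _ ((hL _).2 (hproj v))
    rw [polar_sub_right] at h1
    change polar Q u v - polarBilin Q u _ = 0 at h1
    rw [map_sum, Finset.sum_eq_zero (fun p _ => by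
      rw [map_smul, polarBilin_apply_apply, polar_comm Q u, (hL u).1 hu p, smul_zero]), sub_zero] at h1
    exact h1
  have hWdim : 2 ≤ finrank F (LinearMap.ker L) := by
    have h1 := L.finrank_range_add_finrank_ker
    have h3 := Submodule.finrank_le (LinearMap.range L)
    rw [Module.finrank_fintype_fun_eq_card] at h1 h3
    rw [Fintype.card_prod, Fintype.card_fin, Fintype.card_fin] at h3
    omega
  obtain ⟨ε, hε⟩ := exists_nonsquare_of_two (F := F) h2
  obtain ⟨w1, hw1, hq1⟩ := exists_value_mem h2 hWnd hWdim 1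
  obtain ⟨w2, hw2, hq2⟩ := exists_value_mem h2 hWnd hWdim ε
  have hq1' : Q w1 ≠ 0 := by rw [hq1]; exact one_ne_zero
  have hq2' : Q w2 ≠ 0 := by rw [hq2]; exact fun h => hε (h ▸ IsSquare.zero)
  obtain ⟨g, t, hh', ht', hΩ⟩ := exists_adjust h2 S.nd (by omega) g0 (refl Q hq1') (refl Q hq1' * refl Q hq2')
    (Classes.detHom_refl Q _) (by rw [map_mul, Classes.detHom_refl, Classes.detHom_refl]; ring)
    (by
      rw [map_mul, (spinSign_refl h2 one_ne_zero hq1').2 (by rw [hq1, div_one]; exact IsSquare.one),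
        (spinSign_refl' h2 one_ne_zero hq2').2 (by
          rw [hq2, one_div]; exact fun e => hε (isSquare_inv.1 e)), mul_one])
  refine ⟨g0 * g * t, hΩ, ?_⟩
  have hc1 : y * refl Q hq1' = refl Q hq1' * y := act_refl_comm hq1' (hyw _ ((hL _).1 hw1))
  have hc2 : y * refl Q hq2' = refl Q hq2' * y := act_refl_comm hq2' (hyw _ ((hL _).1 hw2))
  have hc : Commute y (g * t) := by
    refine Commute.mul_right ?_ ?_
    · rcases hh' with rfl | rfl
      · exact Commute.one_right _
      · exact hc1
    · rcases ht' with rfl | rfl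
      · exact Commute.one_right _
      · exact Commute.mul_right hc1 hc2
  rw [show (g0 * g * t)⁻¹ * X * (g0 * g * t) = (g * t)⁻¹ * y * (g * t) by rw [hy]; group]
  rw [mul_assoc, hc.eq, inv_mul_cancel_left]
  exact hyN

/-- An element of square minus one in `Ω` is conjugate into the normaliser. -/
theorem turn_case (S : Gen Q K θ ω) {d : ℕ} (hι : Fintype.card ι = 2 * d) (hd : 2 ≤ d)
    (X : Cfsg.isometryGroup F (⇑Q)) (hxx : ∀ v, act Q X (act Q X v) = -v) :
    ∃ g ∈ Cfsg.Omega F (⇑Q), ((g⁻¹ * X * g : Cfsg.isometryGroup F (⇑Q)) : GL ι F) ∈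
      Cfsg.Geo.subalgebraNormalizer K := by
  classical
  have h2 := S.two
  obtain ⟨m, rfl⟩ : ∃ m, d = m + 1 := ⟨d - 1, by omega⟩
  obtain ⟨f, hf, -, hxf⟩ := exists_turn_pairs h2 (lin X) (Q_act X) hxx (m + 1) ⊤ (ndOn_top S.nd)
    (fun _ _ => trivial) (by rw [finrank_top, Module.finrank_fintype_fun_eq_card, hι])
  obtain ⟨e', a', c', he', -, hfr⟩ := S.exists_frame m ⊤ (ndOn_top S.nd) (fun _ _ => trivial)
    (by rw [finrank_top, Module.finrank_fintype_fun_eq_card, hι]; omega)
  obtain ⟨g0, hg0⟩ := exists_move h2 S.nd he'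
    (f := fun p : Fin m × Fin 2 => f (p.1.castSucc, p.2)) (fun i j => by rw [hf]; simp [Prod.ext_iff])
  let e : Fin (m + 1) × Fin 2 → ι → F := fun p => act Q g0⁻¹ (f p)
  have he : ON Q e := fun i j => (pf_act g0⁻¹ (f i) (f j)).trans (hf i j)
  have hee : ∀ i s, e (Fin.castSucc i, s) = e' (i, s) := fun i s => by
    show act Q g0⁻¹ _ = _
    rw [← hg0 (i, s), act_inv_act]
  have hcard : Fintype.card (Fin (m + 1) × Fin 2) = Fintype.card ι := by
    rw [Fintype.card_prod, Fintype.card_fin, Fintype.card_fin, hι, mul_comm]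
  -- different planes stay orthogonal
  have hoff : ∀ i j s t, i ≠ j → polar Q (e (i, s)) (θ *ᵥ e (j, t)) = 0 := by
    have key : ∀ (i : Fin m) j s t, Fin.castSucc i ≠ j → polar Q (θ *ᵥ e (Fin.castSucc i, s)) (e (j, t)) = 0 := by
      intro i j s t hij
      fin_cases s <;> simp only [hee] <;> simp [hfr.zero, hfr.one] <;> simp only [← hee] <;>
        simp [polar_add_left, polar_sub_left, polar_smul_left, he _ _, hij]
    intro i j s t hij
    induction i using Fin.lastCases
    · induction j using Fin.lastCases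
      · exact absurd rfl hij
      · rw [polar_comm]; exact key _ _ _ _ (Ne.symm hij)
    · rw [← S.adj]; exact key _ _ _ _ hij
  set a : Fin (m + 1) → F := fun i => (2 : F)⁻¹ * polar Q (e (i, 0)) (θ *ᵥ e (i, 0)) with ha
  set c : Fin (m + 1) → F := fun i => (2 : F)⁻¹ * polar Q (e (i, 1)) (θ *ᵥ e (i, 0)) with hc
  set a2 : Fin (m + 1) → F := fun i => (2 : F)⁻¹ * polar Q (e (i, 1)) (θ *ᵥ e (i, 1)) with ha2
  have hexp : ∀ v, v = ∑ p, ((2 : F)⁻¹ * polar Q (e p) v) • e p := fun v => by
    refine sub_eq_zero.1 (S.nd.1 _ fun w => ?_)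
    have hw : w ∈ Submodule.span F (Set.range e) := by
      rw [(he.linearIndependent h2).span_eq_top_of_card_eq_finrank'
        (by rw [hcard, Module.finrank_fintype_fun_eq_card])]
      trivial
    induction hw using Submodule.span_induction with
    | mem u hu =>
      obtain ⟨l, rfl⟩ := hu
      simp only [map_sub, map_sum, map_smul, LinearMap.sub_apply, LinearMap.sum_apply, LinearMap.smul_apply,
        polarBilin_apply_apply, smul_eq_mul, he _ l, mul_ite, mul_zero, Finset.sum_ite_eq', Finset.mem_univ, if_true,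
        polar_comm Q v]
      field_simp; ring
    | zero => simp
    | add a b _ _ ha hb => rw [map_add, ha, hb, add_zero]
    | smul c a _ ha => rw [map_smul, ha, smul_zero]
  have hθe : ∀ i s, θ *ᵥ e (i, s) = ((2 : F)⁻¹ * polar Q (e (i, 0)) (θ *ᵥ e (i, s))) • e (i, 0) +
      ((2 : F)⁻¹ * polar Q (e (i, 1)) (θ *ᵥ e (i, s))) • e (i, 1) := fun i s => by
    conv_lhs => rw [hexp (θ *ᵥ e (i, s)), Fintype.sum_prod_type, Finset.sum_eq_single i (fun j _ hj => by
      simp [Fin.sum_univ_two, hoff j i _ _ hj]) (fun h => absurd (Finset.mem_univ i) h), Fin.sum_univ_two]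
  have h0 : ∀ i, θ *ᵥ e (i, 0) = a i • e (i, 0) + c i • e (i, 1) := fun i => hθe i 0
  have h1 : ∀ i, θ *ᵥ e (i, 1) = c i • e (i, 0) + a2 i • e (i, 1) := fun i => by
    rw [hθe i 1]; simp only [hc, ha2, ← S.adj (e (i, 0)) (e (i, 1)), polar_comm Q (θ *ᵥ e (i, 0))]
  have htr : ∀ i, a2 i = -a i := by
    intro i
    have h := S.sq (e (i, 0))
    rw [h0, Matrix.mulVec_add, Matrix.mulVec_smul, Matrix.mulVec_smul, h0, h1] at h
    have k0 := congrArg (polar Q (e (i, 0))) h
    have k1 := congrArg (polar Q (e (i, 1))) h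
    simp only [polar_add_right, polar_smul_right, he _ _, Prod.mk.injEq, true_and, if_true,
      Fin.zero_eq_one_iff, one_ne_zero, zero_ne_one, Nat.succ_ne_self, OfNat.ofNat_ne_one, if_false, smul_eq_mul,
      mul_zero, add_zero, zero_add] at k0 k1
    by_cases hc0 : c i = 0
    · exfalso
      refine S.nonsq ⟨a i, ?_⟩
      rw [hc0] at k0
      exact mul_left_cancel₀ h2 (by linear_combination -k0)
    · have : (2 : F) * (c i * (a i + a2 i)) = 0 := by linear_combination k1
      exact eq_neg_of_add_eq_zero_right ((mul_eq_zero.1 ((mul_eq_zero.1 this).resolve_left h2)).resolve_left hc0)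
  -- any element turning all planes anticommutes with the generator
  have hN : ∀ (y : Cfsg.isometryGroup F (⇑Q)) (σ : Fin (m + 1) → F),
      (∀ i, act Q y (e (i, 0)) = σ i • e (i, 1) ∧ act Q y (e (i, 1)) = -(σ i • e (i, 0))) →
      ((y : Cfsg.isometryGroup F (⇑Q)) : GL ι F) ∈ Cfsg.Geo.subalgebraNormalizer K := by
    intro y σ hy
    refine S.mem_of_anticommute _ fun v => ?_
    have h := he.eq_of_act h2 hcard (lin y * Matrix.toLin' θ) (-(Matrix.toLin' θ * lin y)) ?_
    · exact LinearMap.congr_fun h v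
    rintro ⟨i, s⟩
    simp only [Module.End.mul_apply, Matrix.toLin'_apply, lin_apply, LinearMap.neg_apply]
    fin_cases s <;> simp [h0, h1, htr, act_add, act_smul, act_neg, hy i, Matrix.mulVec_neg, Matrix.mulVec_smul,
      Matrix.mulVec_add] <;> module
  set l := Fin.last m with hl
  set u := e (l, 0) with hu
  set v := e (l, 1) with hv
  obtain ⟨ε, hε⟩ := exists_nonsquare_of_two (F := F) h2
  obtain ⟨p, q, hpq⟩ := exists_binary_eq h2 (one_ne_zero : (1 : F) ≠ 0) one_ne_zero ε
  set u' := p • u + q • v with hu'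
  have hQu' : Q u' = ε := by
    rw [hu', QuadraticMap.map_add Q, QuadraticMap.map_smul, QuadraticMap.map_smul, he.Q_eq h2, he.Q_eq h2,
      polar_smul_left, polar_smul_right, he]
    simp only [Prod.mk.injEq, zero_ne_one, and_false, if_false, smul_eq_mul]
    linear_combination hpq
  have hu0 : Q u ≠ 0 := by rw [he.Q_eq h2]; exact one_ne_zero
  have hu0' : Q u' ≠ 0 := by rw [hQu']; exact fun h => hε (h ▸ IsSquare.zero)
  set T := refl Q hu0 * refl Q hu0' with hT
  obtain ⟨g, t, hg', ht', hΩ⟩ := exists_adjust h2 S.nd (by omega) g0 (refl Q hu0) T (Classes.detHom_refl Q _)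
    (by rw [map_mul, Classes.detHom_refl, Classes.detHom_refl]; ring)
    (by
      rw [map_mul, (spinSign_refl h2 one_ne_zero hu0).2 (by rw [he.Q_eq h2, div_one]; exact IsSquare.one),
        (spinSign_refl' h2 one_ne_zero hu0').2 (by
          rw [hQu', one_div]; exact fun e => hε (isSquare_inv.1 e)), mul_one])
  refine ⟨g0 * g * t, hΩ, ?_⟩
  set y := g⁻¹ * (g0⁻¹ * X * g0) * g with hy
  have hy0 : ∀ i, act Q (g0⁻¹ * X * g0) (e (i, 0)) = e (i, 1) ∧
      act Q (g0⁻¹ * X * g0) (e (i, 1)) = -e (i, 0) := fun i => by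
    have hf0' : act Q X (f (i, 0)) = f (i, 1) := hxf i
    refine ⟨?_, ?_⟩
    · simp only [e]; rw [act_mul, act_mul, act_act_inv, hf0']
    · simp only [e]
      rw [act_mul, act_mul, act_act_inv, ← hf0', hxx, ← neg_one_smul F (f (i, 0)), act_smul, neg_one_smul]
  have hRe : ∀ i s, act Q (refl Q hu0) (e (i, s)) = if (i, s) = (l, 0) then -e (i, s) else e (i, s) := fun i s => by
    rw [act_refl]
    by_cases h : (i, s) = (l, (0 : Fin 2))
    · rw [if_pos h, h, ← hu, pf_self, mul_comm (2 : F), inv_mul_cancel_left₀ hu0]; module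
    · rw [if_neg h, pf, he, if_neg (Ne.symm h), mul_zero, zero_smul, sub_zero]
  obtain ⟨σ, hσ⟩ : ∃ σ : Fin (m + 1) → F,
      ∀ i, act Q y (e (i, 0)) = σ i • e (i, 1) ∧ act Q y (e (i, 1)) = -(σ i • e (i, 0)) := by
    rcases hg' with rfl | rfl
    · exact ⟨fun _ => 1, fun i => by simpa [hy] using hy0 i⟩
    · refine ⟨fun i => if i = l then -1 else 1, fun i => ?_⟩
      rw [hy, refl_inv]
      have hneg : ∀ (g : Cfsg.isometryGroup F (⇑Q)) (w : ι → F), act Q g (-w) = -act Q g w := fun g w => by
        rw [← neg_one_smul F w, act_smul, neg_one_smul]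
      by_cases hil : i = l <;> constructor <;>
        simp [act_mul, hRe, hil, hy0, hneg]
  have hyt : Commute y t := by
    rcases ht' with rfl | rfl
    · exact Commute.one_right _
    have hTfix : ∀ j : Fin (m + 1), j ≠ l → ∀ s, act Q T (e (j, s)) = e (j, s) := fun j hj s => by
      have h1 : pf Q u' (e (j, s)) = 0 := by
        rw [hu', pf, polar_add_left, polar_smul_left, polar_smul_left, he, he, if_neg (by simp [Ne.symm hj]),
          if_neg (by simp [Ne.symm hj]), smul_zero, smul_zero, add_zero]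
      rw [act_mul, act_refl_of_orth Q hu0' h1, act_refl_of_orth Q hu0 (by rw [pf, he, if_neg (by simp [Ne.symm hj])])]
    have hQuu : pf Q u' u = 2 * p ∧ pf Q u' v = 2 * q := by
      constructor <;> rw [hu', pf, polar_add_left, polar_smul_left, polar_smul_left, he, he] <;> simp [mul_comm]
    have hTu : act Q T u = ((p * p - q * q) / ε) • u - (2 * p * q / ε) • v := by
      rw [act_mul, act_refl Q hu0' u, hQuu.1, hQu', act_sub, act_smul, hu', act_add, act_smul, act_smul,
        show act Q (refl Q hu0) u = -u from act_refl_self Q hu0,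
        show act Q (refl Q hu0) v = v by simpa using hRe l 1]
      have := hpq
      match_scalars <;> field_simp [show ε ≠ 0 from fun h => hε (h ▸ IsSquare.zero)] <;>
        first | linear_combination hpq | ring
    have hTv : act Q T v = (2 * p * q / ε) • u + ((p * p - q * q) / ε) • v := by
      rw [act_mul, act_refl Q hu0' v, hQuu.2, hQu', act_sub, act_smul, hu', act_add, act_smul, act_smul,
        show act Q (refl Q hu0) u = -u from act_refl_self Q hu0,
        show act Q (refl Q hu0) v = v by simpa using hRe l 1]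
      match_scalars <;> field_simp [show ε ≠ 0 from fun h => hε (h ▸ IsSquare.zero)] <;>
        first | linear_combination -hpq | linear_combination hpq | ring
    refine ext_act fun z => ?_
    have h := he.eq_of_act h2 hcard (lin y * lin T) (lin T * lin y) ?_
    · simpa [act_mul] using LinearMap.congr_fun h z
    rintro ⟨i, s⟩
    simp only [Module.End.mul_apply, lin_apply]
    have hneg : ∀ (g : Cfsg.isometryGroup F (⇑Q)) (w : ι → F), act Q g (-w) = -act Q g w := fun g w => by
      rw [← neg_one_smul F w, act_smul, neg_one_smul]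
    by_cases hil : i = l
    · subst hil
      fin_cases s
      · simp only [Fin.zero_eta]
        rw [← hu, hTu, act_sub, act_smul, act_smul, hu, hv, (hσ _).1, (hσ _).2, act_smul, ← hu, ← hv, hTv]
        module
      · simp only [Fin.mk_one]
        rw [← hv, hTv, act_add, act_smul, act_smul, hu, hv, (hσ _).1, (hσ _).2, act_neg, act_smul, ← hu, ← hv, hTu]
        module
    · fin_cases s <;> simp [hTfix i hil, hσ i, act_smul, hneg]
  rw [show (g0 * g * t)⁻¹ * X * (g0 * g * t) = t⁻¹ * y * t by rw [hy]; group, mul_assoc, hyt.eq,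
    inv_mul_cancel_left]
  exact hN y σ hσ

end Gen

end CfsgLib.FieldExtOrth
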