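import Mathlib
import Cfsg.Agent.Lib.Derangements.OrthPrimeArith
import Cfsg.Agent.Lib.Omega.OrthUnipotent
import Cfsg.Agent.Lib.Parabolic.OrthReflections

/-!
Isometries of odd prime order of an orthogonal group of even dimension for which the rank of `g - 1` is twice
an odd number.
-/

set_option autoImplicit false
set_option linter.unusedSectionVars false
set_option linter.style.haveILetI false

namespace CfsgLib.FieldExtOrth

open Module QuadraticMap CfsgLib.OrthGen CfsgLib.Derangements CfsgLib.Derangements.OrthExpo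
  CfsgLib.Classes.GUPrime Polynomial
open scoped Matrix

universe u

variable {F : Type u} [Field F] [Fintype F] {ι : Type} [Fintype ι] [DecidableEq ι] {Q : QuadraticForm F (ι → F)}

/-- A transvection-like element of order `p` with two-dimensional image. -/
theorem exists_rank_two {p : ℕ} [Fact p.Prime] [CharP F p] (h2 : (2 : F) ≠ 0)
    (hQ : (polarBilin Q).Nondegenerate) (hn : 5 ≤ Fintype.card ι) :
    ∃ X : Cfsg.isometryGroup F (⇑Q), X ^ p = 1 ∧
      finrank F (LinearMap.range (Matrix.toLin' ((X : GL ι F) : Matrix ι ι F) - 1)) = 2 := by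
  obtain ⟨u, hu0, hu, -⟩ := exists_singular_orth (Q := Q) h2 (fun j : Fin 0 => j.elim0) (by omega)
  obtain ⟨e, he⟩ : ∃ e, pf Q u e ≠ 0 := by
    by_contra hall
    push Not at hall
    exact hu0 (hQ.1 u hall)
  obtain ⟨v, hv0, hv, hvo⟩ := exists_singular_orth (Q := Q) h2 ![u, e] (by omega)
  have huv : pf Q u v = 0 := hvo 0
  have hev : pf Q e v = 0 := hvo 1
  have hzero : siegel Q hu hv huv 0 = 1 := Subtype.ext (Units.ext (siegel_zero Q u v))
  have hpow : ∀ n : ℕ, siegel Q hu hv huv 1 ^ n = siegel Q hu hv huv (n : F) := by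
    intro n
    induction n with
    | zero => simp [hzero]
    | succ n ih => rw [pow_succ, ih, siegel_add, Nat.cast_succ]
  refine ⟨siegel Q hu hv huv 1, by rw [hpow, CharP.cast_eq_zero F p, hzero], ?_⟩
  set T := Matrix.toLin' ((siegel Q hu hv huv 1 : GL ι F) : Matrix ι ι F) - 1 with hT
  have hTx : ∀ x, T x = pf Q u x • v - pf Q v x • u := fun x => by
    rw [hT, LinearMap.sub_apply, Matrix.toLin'_apply, Module.End.one_apply]
    show act Q (siegel Q hu hv huv 1) x - x = _
    rw [act_siegel, one_smul, add_sub_cancel_left]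
  obtain ⟨x, hx⟩ : ∃ x, pf Q v x ≠ 0 := by
    by_contra hall
    push Not at hall
    exact hv0 (hQ.1 v hall)
  have hve : pf Q v e = 0 := by rw [pf_comm, hev]
  have hv' : v ∈ LinearMap.range T := ⟨(pf Q u e)⁻¹ • e, by
    rw [map_smul, hTx, hve, zero_smul, sub_zero, smul_smul, inv_mul_cancel₀ he, one_smul]⟩
  have hu' : u ∈ LinearMap.range T := by
    have h1 : pf Q u x • v - T x ∈ LinearMap.range T := sub_mem (Submodule.smul_mem _ _ hv') ⟨x, rfl⟩
    rw [hTx, sub_sub_cancel] at h1
    exact (Submodule.smul_mem_iff _ hx).1 h1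
  have hli : LinearIndependent F ![u, v] := by
    rw [LinearIndependent.pair_iff]
    intro a b hab
    have h1 := congrArg (pf Q e) hab
    simp only [pf, polar_add_right, polar_smul_right, polar_zero_right, smul_eq_mul] at h1
    rw [show polar Q e v = 0 from hev, mul_zero, add_zero, polar_comm] at h1
    have ha : a = 0 := (mul_eq_zero.1 h1).resolve_right he
    rw [ha, zero_smul, zero_add, smul_eq_zero] at hab
    exact ⟨ha, hab.resolve_right hv0⟩
  have hrange : LinearMap.range T = Submodule.span F (Set.range ![u, v]) := by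
    refine le_antisymm ?_ (Submodule.span_le.2 ?_)
    · rintro _ ⟨y, rfl⟩
      rw [hTx]
      exact sub_mem (Submodule.smul_mem _ _ (Submodule.subset_span ⟨1, rfl⟩))
        (Submodule.smul_mem _ _ (Submodule.subset_span ⟨0, rfl⟩))
    · rintro _ ⟨i, rfl⟩
      fin_cases i
      · exact hu'
      · exact hv'
  rw [hrange, finrank_span_eq_card hli, Fintype.card_fin]

variable {r : ℕ} [Fact r.Prime]

/-- The fixed space of a map of order `r` prime to the characteristic has the multiplicity of the exponent zero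
as dimension. -/
theorem finrank_fixed {L : Type u} [Field L] [Algebra F L] {ζ : L} (hζ : IsPrimitiveRoot ζ r) (hrF : (r : F) ≠ 0)
    {g : Module.End F (ι → F)} (hg : g ^ r = 1) {M : Multiset (ZMod r)} (hM : Expo ζ g M) :
    finrank F (LinearMap.ker (g - 1)) = M.count 0 := by
  classical
  have hss : g.IsSemisimple := Module.End.isSemisimple_of_squarefree_aeval_eq_zero
    (Polynomial.separable_X_pow_sub_C (1 : F) hrF one_ne_zero).squarefree (by simp [hg])
  have h1 := LinearMap.finrank_maxGenEigenspace_eq g 1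
  rw [hss.isFinitelySemisimple.maxGenEigenspace_eq_eigenspace, Module.End.eigenspace_def] at h1
  rw [show g - 1 = g - (1 : F) • (1 : Module.End F (ι → F)) by rw [one_smul], h1, Polynomial.eq_rootMultiplicity_map (algebraMap F L).injective, map_one, hM, ← Polynomial.count_roots,
    expPoly_roots]
  conv_lhs => rw [show (1 : L) = (fun a : ZMod r => ζ ^ a.val) 0 by simp]
  exact Multiset.count_map_eq_count' _ _ (zeta_pow_val_inj hζ) _

/-- Bounds on the block size forced by a prime dividing the group order. -/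
theorem block_bounds (hr2 : r ≠ 2) {q d : ℕ} (uq : (ZMod r)ˣ) (huq : (uq : ZMod r) = (q : ZMod r)) {ε : ℤ}
    (hε : ε = 1 ∨ ε = -1) {N : ℕ}
    (hdvd : (r : ℤ) ∣ 2 * (q : ℤ) ^ N * ((q : ℤ) ^ d - ε) *
      ∏ j ∈ Finset.range (d - 1), ((q : ℤ) ^ (2 * (j + 1)) - 1)) (hd : 0 < d) :
    orderOf (uu uq) ≤ 2 * d ∧
      (orderOf (uu uq) = 2 * d → ((ε * (q : ℤ) ^ d : ℤ) : ZMod r) = 1) := by
  have hbound : ∀ m : ℕ, 0 < m → (uq : ZMod r) ^ (2 * m) = 1 → orderOf (uu uq) ≤ 2 * m := by
    intro m hm h
    have h' : orderOf uq ∣ 2 * m := orderOf_dvd_of_pow_eq_one (Units.ext (by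
      rw [Units.val_pow_eq_pow_val, h, Units.val_one]))
    rw [orderOf_uu hr2]
    split_ifs with ho
    · exact Nat.mul_le_mul_left 2 (Nat.le_of_dvd hm
        ((Nat.Coprime.symm (Nat.coprime_two_left.2 ho)).dvd_of_dvd_mul_left h'))
    · exact Nat.le_of_dvd (by omega) h'
  rw [← ZMod.intCast_zmod_eq_zero_iff_dvd] at hdvd
  push_cast at hdvd
  rw [← huq] at hdvd
  have h20 : (2 : ZMod r) ≠ 0 := fun h => hr2 ((Nat.prime_dvd_prime_iff_eq Fact.out Nat.prime_two).1
    ((ZMod.natCast_eq_zero_iff 2 r).1 (by exact_mod_cast h)))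
  simp only [mul_eq_zero, h20, pow_eq_zero_iff', Units.ne_zero, false_and, or_false, false_or,
    Finset.prod_eq_zero_iff, sub_eq_zero] at hdvd
  rcases hdvd with h | ⟨j, hj, h⟩
  · have hsq : (uq : ZMod r) ^ (2 * d) = 1 := by
      rw [mul_comm, pow_mul, h]
      rcases hε with rfl | rfl <;> simp
    refine ⟨hbound d hd hsq, fun _ => ?_⟩
    push_cast
    rw [← huq, h]
    rcases hε with rfl | rfl <;> simp
  · have hb := hbound (j + 1) j.succ_pos h
    rw [Finset.mem_range] at hj
    exact ⟨by omega, fun h' => by omega⟩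

/-- An isometry of order `r` whose rank of `g - 1` is the block size. -/
theorem exists_block_element {p : ℕ} [Fact p.Prime] [CharP F p] (hr2 : r ≠ 2) (hrp : r ≠ p)
    (hQ : (polarBilin Q).Nondegenerate) {d : ℕ} (hι : Fintype.card ι = 2 * d) {ε : ℤ} (hε : ε = 1 ∨ ε = -1)
    (hD : OrthType.HasDisc Q (ε * (Nat.card F : ℤ) ^ d)) (uq : (ZMod r)ˣ)
    (huq : (uq : ZMod r) = (Fintype.card F : ZMod r)) (hle : orderOf (uu uq) ≤ 2 * d)
    (hfull : orderOf (uu uq) = 2 * d → ((ε * (Nat.card F : ℤ) ^ d : ℤ) : ZMod r) = 1) :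
    ∃ X : Cfsg.isometryGroup F (⇑Q), X ^ r = 1 ∧
      finrank F (LinearMap.range (Matrix.toLin' ((X : GL ι F) : Matrix ι ι F) - 1)) = orderOf (uu uq) := by
  classical
  have hrF : (r : F) ≠ 0 := cast_ne_zero_of_ne (p := p) Fact.out hrp
  haveI : NeZero (r : AlgebraicClosure F) := ⟨fun h => hrF
    ((algebraMap F (AlgebraicClosure F)).injective (by rwa [map_natCast, map_zero]))⟩
  obtain ⟨ζ, hζ⟩ := HasEnoughRootsOfUnity.exists_primitiveRoot (AlgebraicClosure F) r
  set u := uu uq with hu
  set M := Multiset.replicate (2 * d - orderOf u) (0 : ZMod r) + orbit u 1 with hM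
  have hO : Fixes (u : ZMod r) (orbit u 1) := by
    refine Multiset.eq_of_le_of_card_le ((Multiset.le_iff_subset
      ((orbit_nodup u one_ne_zero).map (mul_right_injective₀ u.ne_zero))).2 fun x hx => ?_) (by simp)
    obtain ⟨y, hy, rfl⟩ := Multiset.mem_map.1 hx
    obtain ⟨j, -, rfl⟩ := Multiset.mem_map.1 hy
    refine Multiset.mem_map.2 ⟨(j + 1) % orderOf u, Finset.mem_range.2 (Nat.mod_lt _ (orderOf_pos u)), ?_⟩
    rw [pow_mod_orderOf, pow_succ', Units.val_mul, mul_assoc]
  have hfix : Fixes (u : ZMod r) M := by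
    rw [hM, Fixes, Multiset.map_add, fixes_replicate_zero, hO]
  have hO0 : (0 : ZMod r) ∉ orbit u 1 := by simp [orbit]
  have hcount : M.count 0 = 2 * d - orderOf u := by
    rw [hM, Multiset.count_add, Multiset.count_replicate_self, Multiset.count_eq_zero.2 hO0, add_zero]
  have hcard : M.card = Fintype.card ι := by
    rw [hM, Multiset.card_add, Multiset.card_replicate, card_orbit, hι]
    omega
  obtain ⟨g, hg, hgQ, hgM⟩ := (realised_iff_even hr2 hζ hQ huq hι hε hD M hcard).2
    ⟨hfix, fun h => hfull (by omega)⟩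
  have hgA : Matrix.toLin' (LinearMap.toMatrix' g) = g := Matrix.toLin'_toMatrix' g
  have hpow : LinearMap.toMatrix' g ^ r = 1 :=
    Matrix.toLin'.injective (by rw [Matrix.toLin'_pow, hgA, hg, Matrix.toLin'_one]; rfl)
  have hr1 := (Fact.out : r.Prime).one_le
  refine ⟨mkIso Q (LinearMap.toMatrix' g) (LinearMap.toMatrix' g ^ (r - 1))
    (by rw [← pow_succ', Nat.sub_add_cancel hr1, hpow]) (by rw [← pow_succ, Nat.sub_add_cancel hr1, hpow])
    (fun v => by rw [LinearMap.toMatrix'_mulVec]; exact hgQ v),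
    Subtype.ext (Units.ext (by simpa [coe_mkIso] using hpow)), ?_⟩
  rw [coe_mkIso, hgA]
  have h1 := LinearMap.finrank_range_add_finrank_ker (g - 1)
  rw [finrank_fixed hζ hrF hg hgM, hcount, Module.finrank_fintype_fun_eq_card, hι] at h1
  omega

end CfsgLib.FieldExtOrth
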