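import Mathlib
import Cfsg.Agent.Lib.FieldExtOrth.Index
import Cfsg.Agent.Lib.FieldExtOrth.Odd
import Cfsg.Agent.Lib.FieldExtOrth.Involution

/-!
Elements of prime order fixing a point on the cosets of the normaliser of a quadratic field of self-adjoint
matrices in an orthogonal commutator group.
-/

set_option autoImplicit false
set_option linter.unusedSectionVars false
set_option linter.style.haveILetI false

namespace CfsgLib.FieldExtOrth

open Module QuadraticMap CfsgLib.OrthGen CfsgLib.Derangements CfsgLib.Derangements.OrthExpo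
open scoped Matrix MatrixGroups

universe u

variable {F : Type u} [Field F] [Fintype F] {ι : Type} [Fintype ι] [DecidableEq ι]

theorem relIndex_omega_dvd (Q : QuadraticForm F (ι → F)) (H : Subgroup (GL ι F)) :
    H.relIndex (Cfsg.Geo.omegaGL (⇑Q)) ∣ (H.subgroupOf (Cfsg.isometryGroup F (⇑Q))).index := by
  set W := Cfsg.Omega F (⇑Q) with hW
  set N' := H.subgroupOf (Cfsg.isometryGroup F (⇑Q)) with hN
  have h0 : H.relIndex (Cfsg.Geo.omegaGL (⇑Q)) = N'.relIndex W :=
    (Subgroup.relIndex_comap H (Cfsg.isometryGroup F (⇑Q)).subtype W).symm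
  rw [h0]
  have h1 := Subgroup.relIndex_mul_index (inf_le_right : N' ⊓ W ≤ W)
  have h2 := Subgroup.relIndex_mul_index (inf_le_left : N' ⊓ W ≤ N')
  rw [Subgroup.inf_relIndex_right] at h1
  rw [Subgroup.inf_relIndex_left] at h2
  obtain ⟨t, ht⟩ := Subgroup.relIndex_dvd_index_of_normal (H := W) (K := N')
  have hz : W.relIndex N' ≠ 0 := Subgroup.index_ne_zero_of_finite
  refine ⟨t, Nat.eq_of_mul_eq_mul_left (Nat.pos_of_ne_zero hz) ?_⟩
  rw [h2, ← h1, ht]
  ring

/-- The general statement. -/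
theorem main {p : ℕ} [Fact p.Prime] [CharP F p] (hodd : Odd (Fintype.card F)) {d : ℕ} (hd : 4 ≤ d)
    (Q : QuadraticForm F (ι → F)) {f : (ι → F) → F} (hf : ⇑Q = f) (hQ : (polarBilin Q).Nondegenerate)
    (hι : Fintype.card ι = 2 * d) {ε : ℤ} (hε : ε = 1 ∨ ε = -1)
    (hD : OrthType.HasDisc Q (ε * (Nat.card F : ℤ) ^ d)) {N : ℕ}
    (hG : (Nat.card (Cfsg.isometryGroup F (⇑Q)) : ℤ) = 2 * (Nat.card F : ℤ) ^ N * ((Nat.card F : ℤ) ^ d - ε) *
      ∏ j ∈ Finset.range (d - 1), ((Nat.card F : ℤ) ^ (2 * (j + 1)) - 1))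
    (K : Subalgebra F (Matrix ι ι F)) (hK : Cfsg.Geo.IsFieldSubalgebra 2 K)
    (hKf : Cfsg.Geo.IsSelfAdjointFor (polar f) K) (r : ℕ) [Fact r.Prime]
    (hΩ : r ∣ (Cfsg.Geo.subalgebraNormalizer K).relIndex (Cfsg.Geo.omegaGL f)) :
    (∀ x ∈ Cfsg.Geo.omegaGL f, (∃ z : F, ((x ^ r : GL ι F) : Matrix ι ι F) = z • (1 : Matrix ι ι F)) →
      (∀ z : F, (x : Matrix ι ι F) ≠ z • (1 : Matrix ι ι F)) →
      ∃ g ∈ Cfsg.Geo.omegaGL f, g⁻¹ * x * g ∈ Cfsg.Geo.subalgebraNormalizer K) ↔ r = 2 := by
  classical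
  subst hf
  have hr : r.Prime := Fact.out
  have h2 : (2 : F) ≠ 0 := ClassicalForms.two_ne_zero_of_odd (by rwa [Nat.card_eq_fintype_card])
  haveI : Nonempty ι := Fintype.card_pos_iff.1 (by omega)
  obtain ⟨θ, ω, S⟩ := exists_gen hQ h2 hK hKf
  obtain ⟨v0, hv0⟩ := exists_Q_eq (Q := Q) h2 hQ (by omega) 1
  have hiso : ∀ (X : Cfsg.isometryGroup F (⇑Q)) (z : F),
      ((X : GL ι F) : Matrix ι ι F) = z • (1 : Matrix ι ι F) → z * z = 1 := fun X z h => by
    have h1 := Q_act X v0
    rw [act, h, Matrix.smul_mulVec, Matrix.one_mulVec, QuadraticMap.map_smul, hv0, smul_eq_mul, mul_one] at h1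
    exact h1
  constructor
  · intro H
    rcases hr.eq_two_or_odd' with h | hro
    · exact h
    exfalso
    have hr2 : r ≠ 2 := fun h => by rw [h] at hro; exact absurd hro (by decide)
    have bad : ∀ X : Cfsg.isometryGroup F (⇑Q), X ^ r = 1 →
        ¬ 4 ∣ finrank F (LinearMap.range (Matrix.toLin' ((X : GL ι F) : Matrix ι ι F) - 1)) → False := by
      intro X hX h4
      have hXr : (X : GL ι F) ^ r = 1 := congrArg Subtype.val hX
      have hmem := Omega.mem_omegaGL_of_odd_order h2 hQ (X : GL ι F) (fun v => Q_act X v) hro hXr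
      have hns : ∀ z : F, ((X : GL ι F) : Matrix ι ι F) ≠ z • (1 : Matrix ι ι F) := by
        intro z hz
        refine h4 ?_
        have hzr : z ^ r = 1 := by
          have h := congrArg (fun g : GL ι F => (g : Matrix ι ι F)) hXr
          simp only [Units.val_pow_eq_pow_val, hz, smul_pow, one_pow, Units.val_one] at h
          exact smul_left_injective F one_ne_zero (h.trans (one_smul F _).symm)
        have hz1 : z = 1 := by
          obtain ⟨k, rfl⟩ := hro
          rw [pow_succ, pow_mul, pow_two, hiso X z hz, one_pow, one_mul] at hzr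
          exact hzr
        rw [hz, hz1, one_smul, Matrix.toLin'_one]
        rw [Module.End.one_eq_id, sub_self, LinearMap.range_zero, finrank_bot]
        exact dvd_zero 4
      obtain ⟨g, hg, hgx⟩ := H _ hmem ⟨1, by rw [hXr, one_smul]; rfl⟩ hns
      obtain ⟨G, -, rfl⟩ := hg
      set y : Cfsg.isometryGroup F (⇑Q) := G⁻¹ * X * G with hy
      have hyr : y ^ r = 1 := by
        have h := conj_pow (a := G⁻¹) (b := X) (i := r)
        rw [inv_inv, ← hy, hX] at h
        rw [h]
        group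
      have hyN : ((y : GL ι F)) ∈ Cfsg.Geo.subalgebraNormalizer K := hgx
      have hcomm := S.commute_of_odd hyN hro (congrArg Subtype.val hyr)
      refine h4 ?_
      have hpow : (lin y) ^ r = 1 := by
        have h : (((y : GL ι F)) : Matrix ι ι F) ^ r = 1 :=
          congrArg (fun g : GL ι F => (g : Matrix ι ι F)) (congrArg Subtype.val hyr)
        rw [lin, ← Matrix.toLin'_pow, h, Matrix.toLin'_one]
        rfl
      have hrank := S.four_dvd_rank (lin y) (Q_act y) (fun v => by
        rw [lin, Matrix.toLin'_apply, Matrix.toLin'_apply, Matrix.mulVec_mulVec, hcomm.eq, Matrix.mulVec_mulVec])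
        hro hpow
      let e : (ι → F) ≃ₗ[F] (ι → F) := LinearEquiv.ofLinear (lin G⁻¹) (lin G)
        (LinearMap.ext fun v => act_inv_act G v) (LinearMap.ext fun v => act_act_inv G v)
      have hrange : LinearMap.range (lin y - 1) = (LinearMap.range (lin X - 1)).map (e : (ι → F) →ₗ[F] (ι → F)) := by
        have hcomp : lin y - 1 = (e : (ι → F) →ₗ[F] (ι → F)) ∘ₗ (lin X - 1) ∘ₗ (e.symm : (ι → F) →ₗ[F] (ι → F)) :=
          LinearMap.ext fun v => by
            show act Q y v - v = act Q G⁻¹ (act Q X (act Q G v) - act Q G v)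
            rw [act_sub, act_inv_act, hy, act_mul, act_mul]
        rw [hcomp, LinearMap.range_comp, LinearMap.range_comp, LinearEquiv.range, Submodule.map_top]
      rw [hrange, LinearEquiv.finrank_map_eq] at hrank
      exact hrank
    by_cases hrp : r = p
    · subst hrp
      obtain ⟨X, hX, hrk⟩ := exists_rank_two (p := r) (Q := Q) h2 hQ (by omega)
      exact bad X hX (by rw [hrk]; omega)
    have hq0 : ((Fintype.card F : ℕ) : ZMod r) ≠ 0 := card_cast_ne_zero (p := p) hr hrp
    set uq : (ZMod r)ˣ := Units.mk0 _ hq0 with huq'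
    have huq : (uq : ZMod r) = (Fintype.card F : ZMod r) := rfl
    have hidx := hΩ.trans (relIndex_omega_dvd Q (Cfsg.Geo.subalgebraNormalizer K))
    by_cases h4 : 4 ∣ orderOf uq
    · exact S.not_dvd_index hr2 rfl hι (by omega) hε hD hG uq (by rw [huq, Nat.card_eq_fintype_card]) h4 hidx
    have hcardG : (r : ℤ) ∣ (Nat.card (Cfsg.isometryGroup F (⇑Q)) : ℤ) :=
      Int.natCast_dvd_natCast.2 (hidx.trans (Subgroup.index_dvd_card _))
    rw [hG] at hcardG
    obtain ⟨hle, hfull⟩ := block_bounds hr2 uq (by rw [huq, Nat.card_eq_fintype_card]) hε hcardG (by omega)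
    obtain ⟨X, hX, hrk⟩ := exists_block_element (p := p) hr2 hrp hQ hι hε hD uq huq hle hfull
    refine bad X hX ?_
    rw [hrk, orderOf_uu hr2]
    split_ifs with ho
    · obtain ⟨k, hk⟩ := ho
      omega
    · exact h4
  · rintro rfl x ⟨X, hX, rfl⟩ ⟨z, hxz⟩ hns
    have hz : ∀ v, act Q X (act Q X v) = z • v := fun v => by
      rw [← act_mul, ← pow_two, act]
      rw [show ((X ^ 2 : Cfsg.isometryGroup F (⇑Q)) : GL ι F) = (X : GL ι F) ^ 2 from rfl]
      erw [hxz]
      rw [Matrix.smul_mulVec, Matrix.one_mulVec]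
    rcases mul_self_eq_one_iff.1 (hiso (X ^ 2) z hxz) with rfl | rfl
    · obtain ⟨g, hg, hgN⟩ := S.split_case hι (by omega) X hX (fun v => by rw [hz, one_smul]) (by
        by_contra hall
        push Not at hall
        exact hns 1 (Matrix.toLin'.injective (LinearMap.ext fun v => by
          rw [one_smul, Matrix.toLin'_apply, Matrix.toLin'_one, LinearMap.id_apply]; exact hall v))) (by
        by_contra hall
        push Not at hall
        exact hns (-1) (Matrix.toLin'.injective (LinearMap.ext fun v => by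
          rw [map_smul, Matrix.toLin'_apply, Matrix.toLin'_one, LinearMap.smul_apply, LinearMap.id_apply,
            neg_one_smul]; exact hall v)))
      exact ⟨g, ⟨g, hg, rfl⟩, hgN⟩
    · obtain ⟨g, hg, hgN⟩ := S.turn_case hι (by omega) X (fun v => by rw [hz, neg_one_smul])
      exact ⟨g, ⟨g, hg, rfl⟩, hgN⟩

end CfsgLib.FieldExtOrth
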